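/-
An abstract recognition of `C_L(d₁d₂)/⟨d₁d₂⟩` as the automorphism group of the quotient of `C_L(d₁, d₂)` by `⟨d₁d₂⟩`.
-/
import Mathlib
import Cfsg.Agent.Lib.Components.Layer
import Cfsg.Agent.Lib.Components.Fitting
import Cfsg.Agent.Lib.Components.FStar
import Cfsg.Prelude.Def_KGroupFacts

set_option autoImplicit false

namespace Cfsg.Agent.Lib.Fischer.M24.AutPair

open Cfsg
open scoped commutatorElement

/-- A normal quasisimple subgroup containing its centralizer is the generalized Fitting subgroup. -/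
theorem fstar_eq_of_quasi {X : Type*} [Group X] [Finite X] (K : Subgroup X) (hK : K.Normal)
    (hq : IsQuasisimple K) (hc : Subgroup.centralizer (K : Set X) ≤ K) :
    generalizedFittingSubgroup X = K := by
  have hcomp : IsComponent K := ⟨hK.isSubnormal, hq⟩
  apply le_antisymm
  · refine sup_le ?_ ?_
    · refine sSup_le ?_
      intro M hM
      rcases Cfsg.Agent.Lib.Components.Layer.eq_or_commutator_eq_bot hM hcomp with h | h
      · exact h.le
      · exfalso
        have h0 : M ≤ Subgroup.centralizer (K : Set X) := (Subgroup.commutator_eq_bot_iff_le_centralizer).1 h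
        have h1 : M ≤ K := h0.trans hc
        have hp := hM.2.1
        have hbot : M = ⊥ := by
          have h2 : commutator ↥M = ⊤ := hp.commutator_eq_top
          rw [eq_bot_iff]
          intro y hy
          have hy' : (⟨y, hy⟩ : ↥M) ∈ commutator ↥M := by rw [h2]; trivial
          have h3 : commutator ↥M ≤ ⊥ := by
            rw [commutator_def, Subgroup.commutator_le]
            intro a _ b _
            rw [Subgroup.mem_bot, commutatorElement_eq_one_iff_mul_comm]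
            have := (Subgroup.mem_centralizer_iff.1 (h0 b.2)) a.1 (h1 a.2)
            exact Subtype.ext this
          have := h3 hy'
          rw [Subgroup.mem_bot] at this
          exact congrArg Subtype.val this
        exact Cfsg.Agent.Lib.Components.Layer.ne_bot_of_isComponent hM hbot
    · have hnil := Cfsg.Agent.Lib.Components.Fitting.fitting_isNilpotent (G := X)
      have hsolv : Group.IsSolvable (fittingSubgroup X) := inferInstance
      have hn : (fittingSubgroup X).Normal := inferInstance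
      have h2 := Cfsg.Agent.Lib.Components.Layer.commutator_layer_eq_bot_of_isSolvable hsolv hn
      rw [Subgroup.commutator_comm, Subgroup.commutator_eq_bot_iff_le_centralizer] at h2
      refine h2.trans (le_trans ?_ hc)
      exact Subgroup.centralizer_le (Cfsg.Agent.Lib.Components.Layer.le_layer hcomp)
  · exact (Cfsg.Agent.Lib.Components.FStar.le_layer hcomp).trans Cfsg.Agent.Lib.Components.FStar.layer_le_generalizedFitting

section main

variable {G : Type*} [Group G]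

/-- The joint centralizer. -/
abbrev KK (L : Subgroup G) (d₁ d₂ : G) : Subgroup G := L ⊓ Subgroup.centralizer ({d₁, d₂} : Set G)

/-- The centralizer of the product. -/
abbrev CC (L : Subgroup G) (d₁ d₂ : G) : Subgroup G := L ⊓ Subgroup.centralizer ({d₁ * d₂} : Set G)

/-- The hypotheses. -/
structure Hyp (D : Set G) (L : Subgroup G) (d₁ d₂ x : G) : Prop where
  hDL : ∀ a ∈ D, a ∉ L
  hL2 : ∀ a b, a ∉ L → b ∉ L → a * b ∈ L
  hconj : ∀ g : G, ∀ a ∈ D, g * a * g⁻¹ ∈ D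
  hFP : ∀ a ∈ D, ∀ b ∈ D, Commute a b → a ≠ b → ∀ a' ∈ D, ∀ b' ∈ D, Commute a' b' → a' ≠ b' →
    a * b = a' * b' → a = a' ∨ a = b'
  h₁ : d₁ ∈ D
  h₂ : d₂ ∈ D
  hx : x ∈ D
  hne : d₁ ≠ d₂
  hc : Commute d₁ d₂
  c1x : Commute d₁ x
  c2x : Commute d₂ x
  n1x : d₁ ≠ x
  n2x : d₂ ≠ x
  sq₁ : d₁ * d₁ = 1
  sq₂ : d₂ * d₂ = 1
  hswap : ∃ s : G, s * d₁ * s⁻¹ = d₂ ∧ s * d₂ * s⁻¹ = d₁

variable {L : Subgroup G} {d₁ d₂ : G}

theorem conj_eq_iff_comm {c a : G} : c * a * c⁻¹ = a ↔ Commute c a := by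
  constructor
  · intro h
    show c * a = a * c
    calc c * a = c * a * c⁻¹ * c := by group
      _ = a * c := by rw [h]
  · intro h
    rw [h.eq]
    group

theorem conj_comm {c a b : G} (h : Commute a b) : Commute (c * a * c⁻¹) (c * b * c⁻¹) := by
  show c * a * c⁻¹ * (c * b * c⁻¹) = c * b * c⁻¹ * (c * a * c⁻¹)
  calc c * a * c⁻¹ * (c * b * c⁻¹) = c * (a * b) * c⁻¹ := by group
    _ = c * (b * a) * c⁻¹ := by rw [h.eq]
    _ = _ := by group

theorem mem_KK {c : G} : c ∈ KK L d₁ d₂ ↔ c ∈ L ∧ c * d₁ * c⁻¹ = d₁ ∧ c * d₂ * c⁻¹ = d₂ := by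
  rw [Subgroup.mem_inf, Subgroup.mem_centralizer_iff]
  constructor
  · rintro ⟨h1, h2⟩
    refine ⟨h1, conj_eq_iff_comm.2 ?_, conj_eq_iff_comm.2 ?_⟩
    · exact (h2 d₁ (by simp)).symm
    · exact (h2 d₂ (by simp)).symm
  · rintro ⟨h1, h2, h3⟩
    refine ⟨h1, ?_⟩
    rintro y (rfl | hy)
    · exact (conj_eq_iff_comm.1 h2).eq.symm
    · rw [Set.mem_singleton_iff.1 hy]
      exact (conj_eq_iff_comm.1 h3).eq.symm

theorem mem_CC {c : G} : c ∈ CC L d₁ d₂ ↔ c ∈ L ∧ c * (d₁ * d₂) * c⁻¹ = d₁ * d₂ := by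
  rw [Subgroup.mem_inf, Subgroup.mem_centralizer_singleton_iff]
  constructor
  · rintro ⟨h1, h2⟩
    exact ⟨h1, conj_eq_iff_comm.2 h2⟩
  · rintro ⟨h1, h2⟩
    exact ⟨h1, (conj_eq_iff_comm.1 h2).eq⟩

theorem conj_mul (c a b : G) : c * (a * b) * c⁻¹ = (c * a * c⁻¹) * (c * b * c⁻¹) := by group

theorem KK_le_CC : KK L d₁ d₂ ≤ CC L d₁ d₂ := by
  intro c hc
  obtain ⟨h1, h2, h3⟩ := mem_KK.1 hc
  exact mem_CC.2 ⟨h1, by rw [conj_mul, h2, h3]⟩

variable {D : Set G} {x : G}

theorem dichotomy (h : Hyp D L d₁ d₂ x) {c : G} (hc : c ∈ CC L d₁ d₂) :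
    c ∈ KK L d₁ d₂ ∨ (c * d₁ * c⁻¹ = d₂ ∧ c * d₂ * c⁻¹ = d₁) := by
  obtain ⟨h1, h2⟩ := mem_CC.1 hc
  rw [conj_mul] at h2
  have hne' : c * d₁ * c⁻¹ ≠ c * d₂ * c⁻¹ := fun k => h.hne (by
    have := congrArg (fun y => c⁻¹ * y * c) k
    simpa [mul_assoc] using this)
  rcases h.hFP _ (h.hconj c d₁ h.h₁) _ (h.hconj c d₂ h.h₂) (conj_comm h.hc) hne' d₁ h.h₁ d₂ h.h₂ h.hc h.hne h2 with e | e
  · left
    rw [e] at h2
    exact mem_KK.2 ⟨h1, e, mul_left_cancel h2⟩
  · right
    refine ⟨e, ?_⟩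
    rw [e, h.hc.eq] at h2
    exact mul_left_cancel h2

theorem exists_swap (h : Hyp D L d₁ d₂ x) : ∃ s ∈ L, s * d₁ * s⁻¹ = d₂ ∧ s * d₂ * s⁻¹ = d₁ := by
  obtain ⟨s, hs1, hs2⟩ := h.hswap
  by_cases hs : s ∈ L
  · exact ⟨s, hs, hs1, hs2⟩
  · refine ⟨s * d₁, h.hL2 _ _ hs (h.hDL _ h.h₁), ?_, ?_⟩
    · calc s * d₁ * d₁ * (s * d₁)⁻¹ = s * d₁ * s⁻¹ := by group
        _ = d₂ := hs1
    · have e1 : d₁ * d₂ * d₁⁻¹ = d₂ := conj_eq_iff_comm.2 h.hc
      calc s * d₁ * d₂ * (s * d₁)⁻¹ = s * (d₁ * d₂ * d₁⁻¹) * s⁻¹ := by group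
        _ = s * d₂ * s⁻¹ := by rw [e1]
        _ = d₁ := hs2

theorem index_KK (h : Hyp D L d₁ d₂ x) : ((KK L d₁ d₂).subgroupOf (CC L d₁ d₂)).index = 2 := by
  obtain ⟨s, hsL, hs1, hs2⟩ := exists_swap h
  have hsC : s ∈ CC L d₁ d₂ := mem_CC.2 ⟨hsL, by rw [conj_mul, hs1, hs2, h.hc.eq]⟩
  rw [Subgroup.index_eq_two_iff]
  refine ⟨⟨s, hsC⟩, ?_⟩
  rintro ⟨c, hc⟩
  simp only [Subgroup.mem_subgroupOf, Subgroup.coe_mul]
  rcases dichotomy h hc with hk | ⟨e1, e2⟩
  · right
    refine ⟨hk, ?_⟩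
    intro hk2
    have h3 := (mem_KK.1 hk2).2.1
    have h4 := (mem_KK.1 hk).2.2
    apply h.hne
    have e : c * s * d₁ * (c * s)⁻¹ = c * (s * d₁ * s⁻¹) * c⁻¹ := by group
    rw [e, hs1, h4] at h3
    exact h3.symm
  · left
    refine ⟨?_, ?_⟩
    · refine mem_KK.2 ⟨mul_mem (mem_CC.1 hc).1 hsL, ?_, ?_⟩
      · have e : c * s * d₁ * (c * s)⁻¹ = c * (s * d₁ * s⁻¹) * c⁻¹ := by group
        rw [e, hs1, e2]
      · have e : c * s * d₂ * (c * s)⁻¹ = c * (s * d₂ * s⁻¹) * c⁻¹ := by group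
        rw [e, hs2, e1]
    · intro hk
      apply h.hne
      have := (mem_KK.1 hk).2.1
      rw [e1] at this
      exact this.symm

theorem y_mem (h : Hyp D L d₁ d₂ x) : d₁ * x ∈ KK L d₁ d₂ := by
  refine mem_KK.2 ⟨h.hL2 _ _ (h.hDL _ h.h₁) (h.hDL _ h.hx), ?_, ?_⟩
  · apply conj_eq_iff_comm.2
    exact (Commute.refl d₁).mul_left h.c1x.symm
  · apply conj_eq_iff_comm.2
    exact h.hc.mul_left h.c2x.symm

/-- A swapping element does not centralize `d₁ x`. -/
theorem no_swap (h : Hyp D L d₁ d₂ x) {c : G} (e1 : c * d₁ * c⁻¹ = d₂) (hc : Commute c (d₁ * x)) : False := by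
  have e := conj_eq_iff_comm.2 hc
  rw [conj_mul, e1] at e
  have hcx := h.hconj c x h.hx
  have hcomm : Commute d₂ (c * x * c⁻¹) := by
    rw [← e1]
    exact conj_comm h.c1x
  have hne' : d₂ ≠ c * x * c⁻¹ := by
    rw [← e1]
    intro k
    apply h.n1x
    have := congrArg (fun y => c⁻¹ * y * c) k
    simpa [mul_assoc] using this
  rcases h.hFP _ h.h₂ _ hcx hcomm hne' d₁ h.h₁ x h.hx h.c1x h.n1x e with k | k
  · exact h.hne k.symm
  · exact h.n2x k

/-- The centralizer of `K` in `C` lies in `K`. -/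
theorem centralizer_KK (h : Hyp D L d₁ d₂ x) {c : G} (hc : c ∈ CC L d₁ d₂)
    (hcomm : ∀ k ∈ KK L d₁ d₂, Commute c k) : c ∈ KK L d₁ d₂ := by
  rcases dichotomy h hc with hk | ⟨e1, _⟩
  · exact hk
  · exact (no_swap h e1 (hcomm _ (y_mem h))).elim

theorem comm_central {a b e f : G} (hea : Commute e a) (heb : Commute e b) (hfa : Commute f a) (hfb : Commute f b)
    (hef : Commute e f) : (e * a) * (f * b) * (e * a)⁻¹ * (f * b)⁻¹ = a * b * a⁻¹ * b⁻¹ := by
  have h1 : (e * a) * (f * b) = (e * f) * (a * b) := by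
    calc (e * a) * (f * b) = e * (a * f) * b := by group
      _ = e * (f * a) * b := by rw [hfa.eq]
      _ = _ := by group
  have h2 : (f * b) * (e * a) = (e * f) * (b * a) := by
    calc (f * b) * (e * a) = f * (b * e) * a := by group
      _ = f * (e * b) * a := by rw [heb.eq]
      _ = (f * e) * (b * a) := by group
      _ = _ := by rw [hef.eq]
  have h3 : Commute (e * f) (a * b * a⁻¹ * b⁻¹) := by
    have ha := hea.mul_left hfa
    have hb := heb.mul_left hfb
    exact ((ha.mul_right hb).mul_right ha.inv_right).mul_right hb.inv_right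
  have h4 : (e * a) * (f * b) * (e * a)⁻¹ * (f * b)⁻¹ = ((e * a) * (f * b)) * ((f * b) * (e * a))⁻¹ := by group
  rw [h4, h1, h2]
  have h5 : (e * f) * (a * b) * ((e * f) * (b * a))⁻¹ = (e * f) * (a * b * a⁻¹ * b⁻¹) * (e * f)⁻¹ := by group
  rw [h5]
  exact conj_eq_iff_comm.2 h3

/-- Acting trivially modulo the product implies centralizing. -/
theorem comm_of_act (h : Hyp D L d₁ d₂ x) (hp : commutator ↥(KK L d₁ d₂) = ⊤) {c : G}
    (hact : ∀ k ∈ KK L d₁ d₂, c * k * c⁻¹ = k ∨ c * k * c⁻¹ = (d₁ * d₂) * k) :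
    ∀ k ∈ KK L d₁ d₂, Commute c k := by
  set j := d₁ * d₂ with hj
  have hjj : j * j = 1 := by
    rw [hj]
    calc d₁ * d₂ * (d₁ * d₂) = d₁ * (d₂ * d₁) * d₂ := by group
      _ = d₁ * (d₁ * d₂) * d₂ := by rw [h.hc.symm.eq]
      _ = (d₁ * d₁) * (d₂ * d₂) := by group
      _ = 1 := by rw [h.sq₁, h.sq₂, one_mul]
  have hjK : ∀ k ∈ KK L d₁ d₂, Commute j k := by
    intro k hk
    obtain ⟨_, h2, h3⟩ := mem_KK.1 hk
    have e1 : Commute k d₁ := conj_eq_iff_comm.1 h2
    have e2 : Commute k d₂ := conj_eq_iff_comm.1 h3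
    exact (e1.mul_right e2).symm
  have key : ∀ a ∈ KK L d₁ d₂, ∃ e : G, (e = 1 ∨ e = j) ∧ c * a * c⁻¹ = e * a := by
    intro a ha
    rcases hact a ha with e | e
    · exact ⟨1, Or.inl rfl, by rw [e, one_mul]⟩
    · exact ⟨j, Or.inr rfl, e⟩
  have hle : commutator ↥(KK L d₁ d₂) ≤
      (Subgroup.centralizer ({c} : Set G)).comap (KK L d₁ d₂).subtype := by
    rw [commutator_def, Subgroup.commutator_le]
    intro a _ b _
    rw [Subgroup.mem_comap, Subgroup.mem_centralizer_singleton_iff]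
    obtain ⟨e, he, hea⟩ := key a.1 a.2
    obtain ⟨f, hf, hfb⟩ := key b.1 b.2
    have hem : ∀ {e : G}, (e = 1 ∨ e = j) → ∀ k ∈ KK L d₁ d₂, Commute e k := by
      rintro e (rfl | rfl) k hk
      · exact Commute.one_left k
      · exact hjK k hk
    have hef : Commute e f := by
      rcases he with rfl | rfl
      · exact Commute.one_left f
      · rcases hf with rfl | rfl
        · exact Commute.one_right _
        · exact Commute.refl _
    have e3 := comm_central (hem he a.1 a.2) (hem he b.1 b.2) (hem hf a.1 a.2) (hem hf b.1 b.2) hef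
    have e4 : c * (a.1 * b.1 * a.1⁻¹ * b.1⁻¹) * c⁻¹ = a.1 * b.1 * a.1⁻¹ * b.1⁻¹ := by
      calc c * (a.1 * b.1 * a.1⁻¹ * b.1⁻¹) * c⁻¹
          = (c * a.1 * c⁻¹) * (c * b.1 * c⁻¹) * (c * a.1 * c⁻¹)⁻¹ * (c * b.1 * c⁻¹)⁻¹ := by group
        _ = (e * a.1) * (f * b.1) * (e * a.1)⁻¹ * (f * b.1)⁻¹ := by rw [hea, hfb]
        _ = _ := e3
    have e5 : ((⁅a, b⁆ : ↥(KK L d₁ d₂)) : G) = a.1 * b.1 * a.1⁻¹ * b.1⁻¹ := rfl
    show ((⁅a, b⁆ : ↥(KK L d₁ d₂)) : G) * c = c * ((⁅a, b⁆ : ↥(KK L d₁ d₂)) : G)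
    rw [e5]
    exact (conj_eq_iff_comm.1 e4).eq.symm
  intro k hk
  have h1 : (⟨k, hk⟩ : ↥(KK L d₁ d₂)) ∈ commutator ↥(KK L d₁ d₂) := by rw [hp]; trivial
  have h2 := hle h1
  rw [Subgroup.mem_comap, Subgroup.mem_centralizer_singleton_iff] at h2
  exact h2.symm

theorem mem_zpowers_j (h : Hyp D L d₁ d₂ x) {y : G} : y ∈ Subgroup.zpowers (d₁ * d₂) ↔ y = 1 ∨ y = d₁ * d₂ := by
  have hjj : (d₁ * d₂) * (d₁ * d₂) = 1 := by
    calc d₁ * d₂ * (d₁ * d₂) = d₁ * (d₂ * d₁) * d₂ := by group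
      _ = d₁ * (d₁ * d₂) * d₂ := by rw [h.hc.symm.eq]
      _ = (d₁ * d₁) * (d₂ * d₂) := by group
      _ = 1 := by rw [h.sq₁, h.sq₂, one_mul]
  constructor
  · intro hy
    obtain ⟨n, rfl⟩ := Subgroup.mem_zpowers_iff.1 hy
    rcases Int.even_or_odd' n with ⟨m, rfl | rfl⟩
    · left
      rw [zpow_mul, zpow_two, hjj, one_zpow]
    · right
      rw [zpow_add, zpow_mul, zpow_two, hjj, one_zpow, one_mul, zpow_one]
  · rintro (rfl | rfl)
    · exact one_mem _
    · exact Subgroup.mem_zpowers _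

theorem j_ne_one (h : Hyp D L d₁ d₂ x) : d₁ * d₂ ≠ 1 := by
  intro e
  apply h.hne
  calc d₁ = d₁ * (d₂ * d₂) := by rw [h.sq₂, mul_one]
    _ = (d₁ * d₂) * d₂ := by group
    _ = d₂ := by rw [e, one_mul]

theorem j_mem (h : Hyp D L d₁ d₂ x) : d₁ * d₂ ∈ KK L d₁ d₂ := by
  refine mem_KK.2 ⟨h.hL2 _ _ (h.hDL _ h.h₁) (h.hDL _ h.h₂), ?_, ?_⟩
  · apply conj_eq_iff_comm.2
    exact (Commute.refl d₁).mul_left h.hc.symm
  · apply conj_eq_iff_comm.2
    exact h.hc.mul_left (Commute.refl d₂)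

local notation "K" => KK L d₁ d₂
local notation "C" => CC L d₁ d₂

/-- The main theorem. -/
theorem main [Finite G] (h : Hyp D L d₁ d₂ x)
    [hn : ((Subgroup.zpowers (d₁ * d₂)).subgroupOf (CC L d₁ d₂)).Normal]
    (hq : IsQuasisimple ↥(KK L d₁ d₂))
    {S : Type} [Group S] (hcS : Subgroup.center S = ⊥) (hout : Nat.card (Out S) = 2)
    (f : ↥(KK L d₁ d₂) →* S) (hfs : Function.Surjective f)
    (hfk : ∀ k : ↥(KK L d₁ d₂), f k = 1 ↔ k.1 = 1 ∨ k.1 = d₁ * d₂) :
    KK L d₁ d₂ = (generalizedFittingSubgroup ↥(CC L d₁ d₂)).map (CC L d₁ d₂).subtype ∧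
    Nonempty (↥(CC L d₁ d₂) ⧸ (Subgroup.zpowers (d₁ * d₂)).subgroupOf (CC L d₁ d₂) ≃* MulAut S) := by
  have hle : K ≤ C := KK_le_CC
  have hidx : ((K).subgroupOf C).index = 2 := index_KK h
  haveI hKn : ((K).subgroupOf C).Normal := Subgroup.normal_of_index_eq_two hidx
  have hp : commutator ↥K = ⊤ := hq.1.commutator_eq_top
  let eK : ↥((K).subgroupOf C) ≃* ↥K := Subgroup.subgroupOfEquivOfLe hle
  have hq' : IsQuasisimple ↥((K).subgroupOf C) := Cfsg.Agent.Lib.Components.FStar.isQuasisimple_congr eK.symm hq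
  have hfstar : generalizedFittingSubgroup ↥C = (K).subgroupOf C := by
    apply fstar_eq_of_quasi _ hKn hq'
    intro c hc
    rw [Subgroup.mem_subgroupOf]
    apply centralizer_KK h c.2
    intro k hk
    have := Subgroup.mem_centralizer_iff.1 hc ⟨k, hle hk⟩ (by rw [SetLike.mem_coe, Subgroup.mem_subgroupOf]; exact hk)
    exact (congrArg Subtype.val this).symm
  refine ⟨?_, ?_⟩
  · rw [hfstar, Subgroup.map_subgroupOf_eq_of_le hle]
  -- the quotient
  set J := (Subgroup.zpowers (d₁ * d₂)).subgroupOf C with hJ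
  have hmemJ : ∀ c : ↥C, c ∈ J ↔ c.1 = 1 ∨ c.1 = d₁ * d₂ := by
    intro c
    rw [hJ, Subgroup.mem_subgroupOf, mem_zpowers_j h]
  haveI : Finite S := Finite.of_surjective f hfs
  let B : Subgroup (↥C ⧸ J) := ((K).subgroupOf C).map (QuotientGroup.mk' J)
  haveI hBn : B.Normal := hKn.map _ (QuotientGroup.mk'_surjective J)
  let r : ↥((K).subgroupOf C) →* ↥B := (QuotientGroup.mk' J).subgroupMap ((K).subgroupOf C)
  have hr : Function.Surjective r := (QuotientGroup.mk' J).subgroupMap_surjective ((K).subgroupOf C)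
  let f' : ↥((K).subgroupOf C) →* S := f.comp eK.toMonoidHom
  have hf' : Function.Surjective f' := hfs.comp eK.surjective
  have hker : r.ker = f'.ker := by
    ext k
    rw [MonoidHom.mem_ker, MonoidHom.mem_ker]
    have e1 : r k = 1 ↔ k.1 ∈ J := by
      rw [Subtype.ext_iff]
      exact QuotientGroup.eq_one_iff k.1
    rw [e1, hmemJ]
    exact (hfk (eK k)).symm
  let E : ↥B ≃* S := (QuotientGroup.quotientKerEquivOfSurjective r hr).symm.trans
    ((QuotientGroup.quotientMulEquivOfEq hker).trans (QuotientGroup.quotientKerEquivOfSurjective f' hf'))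
  let Φ : (↥C ⧸ J) →* MulAut S := (MulAut.congr E).toMonoidHom.comp (MulAut.conjNormal (H := B))
  have hcB : Subgroup.center ↥B = ⊥ := by
    rw [eq_bot_iff]
    intro b hb
    have h1 : E b ∈ Subgroup.center S := by
      rw [Subgroup.mem_center_iff]
      intro s
      obtain ⟨b', rfl⟩ := E.surjective s
      rw [← map_mul, ← map_mul, (Subgroup.mem_center_iff.1 hb) b']
    rw [hcS, Subgroup.mem_bot] at h1
    rw [Subgroup.mem_bot]
    exact E.injective (h1.trans (map_one E).symm)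
  have hinj : Function.Injective Φ := by
    rw [injective_iff_map_eq_one]
    intro a ha
    have h1 : MulAut.conjNormal (H := B) a = 1 := by
      have : (MulAut.congr E) (MulAut.conjNormal (H := B) a) = 1 := ha
      exact (MulAut.congr E).injective (this.trans (map_one _).symm)
    obtain ⟨c, rfl⟩ := QuotientGroup.mk'_surjective J a
    have h2 : ∀ b : ↥B, (QuotientGroup.mk' J c) * b.1 * (QuotientGroup.mk' J c)⁻¹ = b.1 := by
      intro b
      have := congrArg (fun g : MulAut ↥B => ((g b : ↥B) : ↥C ⧸ J)) h1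
      simpa [MulAut.conjNormal_apply] using this
    -- the action on `K` modulo `j`
    have hact : ∀ k ∈ K, c.1 * k * c.1⁻¹ = k ∨ c.1 * k * c.1⁻¹ = (d₁ * d₂) * k := by
      intro k hk
      have hk' : (⟨k, hle hk⟩ : ↥C) ∈ (K).subgroupOf C := by rw [Subgroup.mem_subgroupOf]; exact hk
      let b : ↥B := ⟨QuotientGroup.mk' J ⟨k, hle hk⟩, ⟨_, hk', rfl⟩⟩
      have h3 := h2 b
      have h4 : QuotientGroup.mk' J (c * ⟨k, hle hk⟩ * c⁻¹ * (⟨k, hle hk⟩ : ↥C)⁻¹) = 1 := by
        rw [map_mul, map_mul, map_mul, map_inv, map_inv]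
        show (QuotientGroup.mk' J c) * b.1 * (QuotientGroup.mk' J c)⁻¹ * b.1⁻¹ = 1
        rw [h3, mul_inv_cancel]
      have h5 : c * ⟨k, hle hk⟩ * c⁻¹ * (⟨k, hle hk⟩ : ↥C)⁻¹ ∈ J := (QuotientGroup.eq_one_iff _).1 h4
      rcases (hmemJ _).1 h5 with e | e
      · left
        have e' : c.1 * k * c.1⁻¹ * k⁻¹ = 1 := e
        exact mul_inv_eq_one.1 e'
      · right
        have e' : c.1 * k * c.1⁻¹ * k⁻¹ = d₁ * d₂ := e
        exact mul_inv_eq_iff_eq_mul.1 e'
    have hcomm := comm_of_act h hp hact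
    have hcK : c.1 ∈ K := centralizer_KK h c.2 hcomm
    have hcK' : c ∈ (K).subgroupOf C := by rw [Subgroup.mem_subgroupOf]; exact hcK
    let bc : ↥B := ⟨QuotientGroup.mk' J c, ⟨_, hcK', rfl⟩⟩
    have hbc : bc ∈ Subgroup.center ↥B := by
      rw [Subgroup.mem_center_iff]
      intro b
      apply Subtype.ext
      show b.1 * (QuotientGroup.mk' J c) = (QuotientGroup.mk' J c) * b.1
      have := h2 b
      rw [mul_inv_eq_iff_eq_mul] at this
      exact this.symm
    rw [hcB, Subgroup.mem_bot] at hbc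
    exact congrArg Subtype.val hbc
  -- cardinalities
  haveI : Finite (MulAut S) := Finite.of_injective (fun e : MulAut S => (e : S → S)) DFunLike.coe_injective
  have hcard : Nat.card (MulAut S) ≤ Nat.card (↥C ⧸ J) := by
    have hcInn : Nat.card (Inn S) = Nat.card S := by
      have hinjc : Function.Injective (MulAut.conj : S →* MulAut S) := by
        rw [injective_iff_map_eq_one]
        intro s hs
        have : s ∈ Subgroup.center S := by
          rw [Subgroup.mem_center_iff]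
          intro y
          have := congrArg (fun g : MulAut S => g y) hs
          simp only [MulAut.conj_apply, MulAut.one_apply] at this
          rw [mul_inv_eq_iff_eq_mul] at this
          exact this.symm
        rw [hcS, Subgroup.mem_bot] at this
        exact this
      exact (Nat.card_congr (MonoidHom.ofInjective hinjc).toEquiv).symm
    have h1 : Nat.card (MulAut S) = 2 * Nat.card S := by
      have := Subgroup.card_eq_card_quotient_mul_card_subgroup (Inn S)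
      rw [this, hcInn]
      show Nat.card (Out S) * _ = _
      rw [hout]
    have hjK : (⟨d₁ * d₂, j_mem h⟩ : ↥K) ≠ 1 := fun e => j_ne_one h (congrArg Subtype.val e)
    have h2 : Nat.card ↥K = Nat.card S * 2 := by
      have h3 := Subgroup.card_eq_card_quotient_mul_card_subgroup f.ker
      have h4 : Nat.card (↥K ⧸ f.ker) = Nat.card S :=
        Nat.card_congr (QuotientGroup.quotientKerEquivOfSurjective f hfs).toEquiv
      have h5 : Nat.card ↥f.ker = 2 := by
        rw [Nat.card_eq_two_iff' (1 : ↥f.ker)]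
        refine ⟨⟨⟨d₁ * d₂, j_mem h⟩, (hfk _).2 (Or.inr rfl)⟩, ?_, ?_⟩
        · intro e
          exact hjK (congrArg Subtype.val e)
        · rintro ⟨y, hy⟩ hy1
          have h6 := (hfk y).1 hy
          rcases h6 with h6 | h6
          · exact (hy1 (Subtype.ext (Subtype.ext h6))).elim
          · exact Subtype.ext (Subtype.ext h6)
      rw [h3, h4, h5]
    have h3 : Nat.card ↥C = Nat.card ↥K * 2 := by
      have h4 := Subgroup.card_mul_index ((K).subgroupOf C)
      rw [hidx, Nat.card_congr eK.toEquiv] at h4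
      exact h4.symm
    have h4 : Nat.card ↥J = 2 := by
      rw [Nat.card_eq_two_iff' (1 : ↥J)]
      have hjC : (⟨d₁ * d₂, hle (j_mem h)⟩ : ↥C) ∈ J := (hmemJ _).2 (Or.inr rfl)
      refine ⟨⟨⟨d₁ * d₂, hle (j_mem h)⟩, hjC⟩, ?_, ?_⟩
      · intro e
        exact j_ne_one h (congrArg (fun y : ↥J => (y.1.1 : G)) e)
      · rintro ⟨y, hy⟩ hy1
        rcases (hmemJ y).1 hy with h6 | h6
        · exact (hy1 (Subtype.ext (Subtype.ext h6))).elim
        · exact Subtype.ext (Subtype.ext h6)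
    have h5 : Nat.card ↥C = Nat.card (↥C ⧸ J) * 2 := by
      have := Subgroup.card_eq_card_quotient_mul_card_subgroup J
      rwa [h4] at this
    have hSpos : 0 < Nat.card S := Nat.card_pos
    have h6 : Nat.card (↥C ⧸ J) = Nat.card S * 2 := by
      have : Nat.card (↥C ⧸ J) * 2 = Nat.card S * 2 * 2 := by rw [← h5, h3, h2]
      omega
    rw [h1, h6, mul_comm]
  exact ⟨MulEquiv.ofBijective Φ (hinj.bijective_of_nat_card_le hcard)⟩

end main

end Cfsg.Agent.Lib.Fischer.M24.AutPair
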