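/-
The pair centralizer in the derived group of the explicit `Fi24`: `C_L(d₁d₂)/⟨d₁d₂⟩` is the automorphism group of `Fi22`.
-/
import Mathlib
import Cfsg.Agent.Lib.Fischer.M24.AutPair
import Cfsg.Agent.Lib.Fischer.M24.E.Rows
import Cfsg.Agent.Lib.Sporadic.Fi22Out.Main

set_option autoImplicit false
set_option maxRecDepth 100000

namespace Cfsg.Agent.Lib.Fischer.M24.AutPairE

open Cfsg Cfsg.Agent.Lib.Fischer.Basic Cfsg.Agent.Lib.Fischer.Local
open Cfsg.Agent.Lib.Fischer.M24.Explicit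
open Cfsg.Agent.Lib.Fischer.M24.AutPair

/-- Transport of the hypotheses. -/
theorem Hyp_of_iso {G G' : Type*} [Group G] [Group G'] (e : G ≃* G') {D : Set G} {D' : Set G'} {L : Subgroup G}
    {L' : Subgroup G'} (hD : ∀ a, a ∈ D ↔ e a ∈ D') (hL : ∀ a, a ∈ L ↔ e a ∈ L') {d₁ d₂ x : G}
    (h : Hyp D' L' (e d₁) (e d₂) (e x)) : Hyp D L d₁ d₂ x := by
  have cm : ∀ {a b : G}, Commute (e a) (e b) → Commute a b := fun k => e.injective (by rw [map_mul, map_mul]; exact k)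
  refine ⟨?_, ?_, ?_, ?_, (hD _).2 h.h₁, (hD _).2 h.h₂, (hD _).2 h.hx, fun k => h.hne (by rw [k]), cm h.hc, cm h.c1x, cm h.c2x,
    fun k => h.n1x (by rw [k]), fun k => h.n2x (by rw [k]), e.injective (by rw [map_mul, h.sq₁, map_one]),
    e.injective (by rw [map_mul, h.sq₂, map_one]), ?_⟩
  · intro a ha k
    exact h.hDL _ ((hD a).1 ha) ((hL a).1 k)
  · intro a b ha hb
    apply (hL _).2
    rw [map_mul]
    exact h.hL2 _ _ (fun k => ha ((hL a).2 k)) (fun k => hb ((hL b).2 k))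
  · intro g a ha
    apply (hD _).2
    rw [map_mul, map_mul, map_inv]
    exact h.hconj _ _ ((hD a).1 ha)
  · intro a ha b hb c n a' ha' b' hb' c' n' p
    have := h.hFP _ ((hD a).1 ha) _ ((hD b).1 hb) (c.map e) (fun k => n (e.injective k)) _ ((hD a').1 ha') _ ((hD b').1 hb')
      (c'.map e) (fun k => n' (e.injective k)) (by rw [← map_mul, ← map_mul, p])
    exact this.imp (fun k => e.injective k) (fun k => e.injective k)
  · obtain ⟨s, h1, h2⟩ := h.hswap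
    refine ⟨e.symm s, e.injective ?_, e.injective ?_⟩
    · rw [map_mul, map_mul, map_inv, MulEquiv.apply_symm_apply, h1]
    · rw [map_mul, map_mul, map_inv, MulEquiv.apply_symm_apply, h2]

theorem D2_not_F2 {a : G2} (ha : a ∈ D2) : a ∉ F2 := by
  obtain ⟨g, hg⟩ := conj_trans2 a ha z2 z2_mem
  intro k
  apply z2_not_F2
  rw [← hg]
  exact F2_normal.conj_mem a k g

theorem L2_comm_z2 : Commute z2 (L 2) := L2_mem_Dlt.2.2

/-- The hypotheses on the explicit group. -/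
theorem Hyp2 : Hyp D2 F2 z2 (L 0) (L 2) := by
  refine ⟨fun a ha => D2_not_F2 ha, fun a b ha hb => mul_F2_of ha hb, D2_conj, ?_, z2_mem, L0_mem_Dlt.1, L2_mem_Dlt.1,
    L0_mem_Dlt.2.1.symm, L0_mem_Dlt.2.2, L2_mem_Dlt.2.2, comm_L0_L2, L2_mem_Dlt.2.1.symm, L0_ne_L2, z2_sq, L_sq 0, ?_⟩
  · intro a ha b hb c n a' ha' b' hb' c' _ p
    rcases FP2_2 ha hb ha' hb' c c' n p with ⟨k, _⟩ | ⟨_, k⟩
    · exact Or.inl k.symm
    · exact Or.inr k.symm
  · obtain ⟨s, h1, h2⟩ := pair_nf2 L0_mem_Dlt.1 z2_mem L0_mem_Dlt.2.2.symm L0_mem_Dlt.2.1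
    exact ⟨s, h2, h1⟩

/-- The joint centralizer in the explicit group. -/
noncomputable abbrev Kz : Subgroup G2 := KK F2 z2 (L 0)

theorem mem_Kz {k : G2} : k ∈ Kz ↔ k ∈ F2 ∧ k * z2 * k⁻¹ = z2 ∧ k * L 0 * k⁻¹ = L 0 := mem_KK

theorem Kz_H2 {k : G2} (h : k ∈ Kz) : k ∈ H2 := (comm_z2_iff k).1 (conj_eq_iff_comm.1 (mem_Kz.1 h).2.1)

theorem L0_H2 : L 0 ∈ H2 := mem_H2_of_Dlt L0_mem_Dlt

theorem π2_one : π2 1 = 1 := by
  have := π2_mul (one_mem H2) (one_mem H2)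
  rw [mul_one] at this
  simpa using this

theorem a1_mem : Cfsg.Agent.Lib.Fischer.M23.Explicit.L 0 ∈ Cfsg.Agent.Lib.Fischer.M23.Explicit.D1 := by
  rw [← π2_L0]
  exact π2_mem_D1 L0_mem_Dlt

theorem comm_a1 {k : G2} (h : k ∈ Kz) : Commute (π2 k) (Cfsg.Agent.Lib.Fischer.M23.Explicit.L 0) := by
  have e : k * L 0 = L 0 * k := (conj_eq_iff_comm.1 (mem_Kz.1 h).2.2).eq
  show π2 k * _ = _ * π2 k
  rw [← π2_L0, ← π2_mul (Kz_H2 h) L0_H2, ← π2_mul L0_H2 (Kz_H2 h), e]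

theorem π2_j : π2 (z2 * L 0) = Cfsg.Agent.Lib.Fischer.M23.Explicit.L 0 := by
  rw [π2_mul z2_H2 L0_H2, π2_z, π2_L0, one_mul]

theorem j_mem_Kz : z2 * L 0 ∈ Kz := j_mem Hyp2

/-- The isomorphism of the joint centralizer with the centralizer of a transposition of `Fi23`. -/
theorem exists_mu : ∃ μ : ↥Kz ≃* ↥Cfsg.Agent.Lib.Fischer.M23.Explicit.H1, ∀ k : ↥Kz,
    (((μ k : ↥Cfsg.Agent.Lib.Fischer.M23.Explicit.H1) : M23.Explicit.G1) = 1 ↔ k.1 = 1) ∧
    (((μ k : ↥Cfsg.Agent.Lib.Fischer.M23.Explicit.H1) : M23.Explicit.G1) = Cfsg.Agent.Lib.Fischer.M23.Explicit.z1 ↔ k.1 = z2 * L 0) := by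
  obtain ⟨g, hg⟩ := Cfsg.Agent.Lib.Fischer.M23.Explicit.conj_trans1 _ a1_mem _ Cfsg.Agent.Lib.Fischer.M23.Explicit.z1_mem
  let μ₀ : ↥Kz →* ↥Cfsg.Agent.Lib.Fischer.M23.Explicit.H1 :=
    { toFun := fun k => ⟨g * π2 k.1 * g⁻¹, (Cfsg.Agent.Lib.Fischer.M23.Explicit.comm_z1_iff _).1 (by
        rw [← hg]; exact conj_comm (comm_a1 k.2))⟩
      map_one' := by
        apply Subtype.ext
        show g * π2 1 * g⁻¹ = 1
        rw [π2_one]
        group
      map_mul' := by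
        intro x y
        apply Subtype.ext
        show g * π2 (x.1 * y.1) * g⁻¹ = (g * π2 x.1 * g⁻¹) * (g * π2 y.1 * g⁻¹)
        rw [π2_mul (Kz_H2 x.2) (Kz_H2 y.2)]
        group }
  have hval : ∀ k : ↥Kz, ((μ₀ k : ↥Cfsg.Agent.Lib.Fischer.M23.Explicit.H1) : M23.Explicit.G1) = g * π2 k.1 * g⁻¹ := fun _ => rfl
  have hinj : Function.Injective μ₀ := by
    rw [injective_iff_map_eq_one]
    intro k hk
    have h1 : g * π2 k.1 * g⁻¹ = 1 := by
      rw [← hval, hk]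
      rfl
    have h2 : π2 k.1 = π2 1 := by
      rw [π2_one]
      have : π2 k.1 = g⁻¹ * (g * π2 k.1 * g⁻¹) * g := by group
      rw [this, h1]
      group
    rcases (π2_eq_iff (Kz_H2 k.2) (one_mem H2)).1 h2 with e | e
    · exact Subtype.ext e
    · exfalso
      rw [one_mul] at e
      apply z2_not_F2
      rw [← e]
      exact (mem_Kz.1 k.2).1
  have hsurj : Function.Surjective μ₀ := by
    rintro ⟨h, hh⟩
    have hch : Commute h (Cfsg.Agent.Lib.Fischer.M23.Explicit.z1) := (Cfsg.Agent.Lib.Fischer.M23.Explicit.comm_z1_iff h).2 hh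
    set y := g⁻¹ * h * g with hy
    have hcy : y * Cfsg.Agent.Lib.Fischer.M23.Explicit.L 0 * y⁻¹ = Cfsg.Agent.Lib.Fischer.M23.Explicit.L 0 := by
      have e1 : h * (g * Cfsg.Agent.Lib.Fischer.M23.Explicit.L 0 * g⁻¹) * h⁻¹ = g * Cfsg.Agent.Lib.Fischer.M23.Explicit.L 0 * g⁻¹ := by
        rw [hg]
        exact conj_eq_iff_comm.2 hch
      calc y * Cfsg.Agent.Lib.Fischer.M23.Explicit.L 0 * y⁻¹
          = g⁻¹ * (h * (g * Cfsg.Agent.Lib.Fischer.M23.Explicit.L 0 * g⁻¹) * h⁻¹) * g := by rw [hy]; group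
        _ = g⁻¹ * (g * Cfsg.Agent.Lib.Fischer.M23.Explicit.L 0 * g⁻¹) * g := by rw [e1]
        _ = _ := by group
    obtain ⟨f, hf, hfF, hfy⟩ := exists_lift y
    have hπ : π2 f = y := by rw [π2_of_mem hf, hfy]
    have e1 : f * L 0 * f⁻¹ = L 0 := by
      apply π2_inj (conj_mem_Dlt hf L0_mem_Dlt) L0_mem_Dlt
      rw [π2_conj hf L0_H2, hπ, π2_L0, hcy]
    refine ⟨⟨f, mem_Kz.2 ⟨hfF, conj_z2 hf, e1⟩⟩, Subtype.ext ?_⟩
    show g * π2 f * g⁻¹ = h
    rw [hπ, hy]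
    group
  refine ⟨MulEquiv.ofBijective μ₀ ⟨hinj, hsurj⟩, fun k => ⟨?_, ?_⟩⟩
  · constructor
    · intro e
      have : μ₀ k = 1 := Subtype.ext e
      have h2 := hinj (this.trans (map_one μ₀).symm)
      exact congrArg Subtype.val h2
    · intro e
      have : k = 1 := Subtype.ext e
      rw [this]
      show ((μ₀ 1 : ↥Cfsg.Agent.Lib.Fischer.M23.Explicit.H1) : M23.Explicit.G1) = 1
      rw [map_one]
      rfl
  · have hj : ((μ₀ ⟨z2 * L 0, j_mem_Kz⟩ : ↥Cfsg.Agent.Lib.Fischer.M23.Explicit.H1) : M23.Explicit.G1) = Cfsg.Agent.Lib.Fischer.M23.Explicit.z1 := by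
      rw [hval]
      show g * π2 (z2 * L 0) * g⁻¹ = _
      rw [π2_j, hg]
    constructor
    · intro e
      have : μ₀ k = μ₀ ⟨z2 * L 0, j_mem_Kz⟩ := Subtype.ext (e.trans hj.symm)
      have h2 := hinj this
      exact congrArg Subtype.val h2
    · intro e
      have : k = ⟨z2 * L 0, j_mem_Kz⟩ := Subtype.ext e
      rw [this]
      exact hj

/-- The structure of the joint centralizer. -/
theorem exists_f : IsQuasisimple ↥Kz ∧ ∃ f : ↥Kz →* Cfsg.Agent.Lib.Fischer.M22.Explicit.G0, Function.Surjective f ∧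
    ∀ k : ↥Kz, f k = 1 ↔ k.1 = 1 ∨ k.1 = z2 * L 0 := by
  obtain ⟨μ, hμ⟩ := exists_mu
  refine ⟨Cfsg.Agent.Lib.Components.FStar.isQuasisimple_congr μ.symm Cfsg.Agent.Lib.Fischer.M23.Explicit.quasi_H1,
    Cfsg.Agent.Lib.Fischer.M23.Explicit.ψ.comp μ.toMonoidHom, Cfsg.Agent.Lib.Fischer.M23.Explicit.ψ_surj.comp μ.surjective, ?_⟩
  intro k
  show Cfsg.Agent.Lib.Fischer.M23.Explicit.ψ (μ k) = 1 ↔ _
  rw [Cfsg.Agent.Lib.Fischer.M23.Explicit.ψ_eq_one_iff, ← (hμ k).1, ← (hμ k).2, Subtype.ext_iff,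
    Subtype.ext_iff (a1 := μ k), Cfsg.Agent.Lib.Fischer.M23.Explicit.zH1_val]
  rfl

/-- The final structure. -/
theorem final {G : Type*} [Group G] [Finite G] {D : Set G} (e : G ≃* G2) (he : ∀ a, a ∈ D ↔ e a ∈ D2) {d₁ d₂ : G}
    (h₁ : d₁ ∈ D) (h₂ : d₂ ∈ D) (hne : d₁ ≠ d₂) (hc : Commute d₁ d₂)
    [hn : ((Subgroup.zpowers (d₁ * d₂)).subgroupOf (CC (commutator G) d₁ d₂)).Normal] :
    IsQuasisimple ↥(KK (commutator G) d₁ d₂) ∧
    KK (commutator G) d₁ d₂ = (generalizedFittingSubgroup ↥(CC (commutator G) d₁ d₂)).map (CC (commutator G) d₁ d₂).subtype ∧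
    KK (commutator G) d₁ d₂ ≤ CC (commutator G) d₁ d₂ ∧
    ((KK (commutator G) d₁ d₂).subgroupOf (CC (commutator G) d₁ d₂)).index = 2 ∧
    d₁ * d₂ ∈ KK (commutator G) d₁ d₂ ∧
    Nonempty (↥(CC (commutator G) d₁ d₂) ⧸ (Subgroup.zpowers (d₁ * d₂)).subgroupOf (CC (commutator G) d₁ d₂) ≃*
      MulAut Cfsg.Spor.Fi22) := by
  obtain ⟨g, hg1, hg2⟩ := pair_nf2 ((he _).1 h₁) ((he _).1 h₂) (hc.map e) (fun k => hne (e.injective k))
  let e' : G ≃* G2 := e.trans (MulAut.conj g)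
  have hval : ∀ a, e' a = g * e a * g⁻¹ := fun _ => rfl
  have he' : ∀ a, a ∈ D ↔ e' a ∈ D2 := by
    intro a
    rw [he, hval]
    constructor
    · exact D2_conj _ _
    · intro k
      have := D2_conj g⁻¹ _ k
      have e3 : g⁻¹ * (g * e a * g⁻¹) * g⁻¹⁻¹ = e a := by group
      rwa [e3] at this
  have hL' : ∀ a, a ∈ commutator G ↔ e' a ∈ F2 := by
    intro a
    have h1 : (commutator G).map e'.toMonoidHom = commutator G2 := by
      rw [commutator_def, commutator_def, Subgroup.map_commutator, Subgroup.map_top_of_surjective _ e'.surjective]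
    rw [← commutator2, ← h1]
    constructor
    · intro k
      exact ⟨a, k, rfl⟩
    · rintro ⟨b, hb, hab⟩
      have : b = a := e'.injective hab
      rwa [← this]
  have e1 : e' d₁ = z2 := hg1
  have e2 : e' d₂ = L 0 := hg2
  have ex : e' (e'.symm (L 2)) = L 2 := e'.apply_symm_apply _
  have H : Hyp D (commutator G) d₁ d₂ (e'.symm (L 2)) := by
    apply Hyp_of_iso e' he' hL'
    rw [e1, e2, ex]
    exact Hyp2
  have iK : ∀ a, a ∈ KK (commutator G) d₁ d₂ ↔ e' a ∈ Kz := by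
    intro a
    rw [mem_KK, mem_Kz, hL', ← e1, ← e2, ← map_inv, ← map_mul, ← map_mul, ← map_mul, ← map_mul, e'.injective.eq_iff,
      e'.injective.eq_iff]
  let FK : ↥(KK (commutator G) d₁ d₂) ≃* ↥Kz := Cfsg.Agent.Lib.Fischer.M23.Explicit.resE e' _ _ iK
  obtain ⟨hq, f, hfs, hfk⟩ := exists_f
  have hq' : IsQuasisimple ↥(KK (commutator G) d₁ d₂) := Cfsg.Agent.Lib.Components.FStar.isQuasisimple_congr FK.symm hq
  have m := main (D := D) (L := commutator G) (d₁ := d₁) (d₂ := d₂) H hq' (S := Cfsg.Spor.Fi22)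
    Cfsg.Agent.Lib.Fischer.M22.Explicit.center0 Cfsg.Agent.Lib.Sporadic.Fi22Out.Main.card_out_Fi22
    (f.comp FK.toMonoidHom) (hfs.comp FK.surjective) (by
      intro k
      show f (FK k) = 1 ↔ _
      rw [hfk]
      have h1 : ((FK k : ↥Kz) : G2) = e' k.1 := rfl
      rw [h1, ← e1, ← e2, ← map_mul, ← map_one e', e'.injective.eq_iff, e'.injective.eq_iff])
  exact ⟨hq', m.1, KK_le_CC, index_KK H, j_mem H, m.2⟩

end Cfsg.Agent.Lib.Fischer.M24.AutPairE
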