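/-
An abstract recognition of `C_L(d₁d₂d₃)/E` as the automorphism group of the quotient of `C_L(d₁, d₂, d₃)` by the four-group `E`.
-/
import Mathlib
import Cfsg.Agent.Lib.Fischer.M24.AutPair
import Cfsg.Agent.Lib.Fischer.M23.ExplicitRows

set_option autoImplicit false

namespace Cfsg.Agent.Lib.Fischer.M24.AutTriple

open Cfsg
open Cfsg.Agent.Lib.Fischer.M24.AutPair
open Cfsg.Agent.Lib.Fischer.M22.Explicit (PMl)
open scoped commutatorElement

/-- **Recognition of the automorphism group.** -/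
theorem aut_iso {X : Type*} [Group X] [Finite X] (K J : Subgroup X) [hK : K.Normal] [hJ : J.Normal] (hJK : J ≤ K)
    (hJc : ∀ j ∈ J, ∀ k ∈ K, Commute j k) (hp : commutator ↥K = ⊤)
    (hC : ∀ c : X, (∀ k ∈ K, Commute c k) → c ∈ K)
    {S : Type} [Group S] (hcS : Subgroup.center S = ⊥)
    (f : ↥K →* S) (hfs : Function.Surjective f) (hfk : ∀ k : ↥K, f k = 1 ↔ k.1 ∈ J)
    (hcard : Nat.card (MulAut S) = K.index * Nat.card S) :
    Nonempty ((X ⧸ J) ≃* MulAut S) := by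
  haveI : Finite S := Finite.of_surjective f hfs
  let B : Subgroup (X ⧸ J) := K.map (QuotientGroup.mk' J)
  haveI hBn : B.Normal := hK.map _ (QuotientGroup.mk'_surjective J)
  let r : ↥K →* ↥B := (QuotientGroup.mk' J).subgroupMap K
  have hr : Function.Surjective r := (QuotientGroup.mk' J).subgroupMap_surjective K
  have hker : r.ker = f.ker := by
    ext k
    rw [MonoidHom.mem_ker, MonoidHom.mem_ker, hfk]
    rw [Subtype.ext_iff]
    exact QuotientGroup.eq_one_iff k.1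
  let E : ↥B ≃* S := (QuotientGroup.quotientKerEquivOfSurjective r hr).symm.trans
    ((QuotientGroup.quotientMulEquivOfEq hker).trans (QuotientGroup.quotientKerEquivOfSurjective f hfs))
  let Φ : (X ⧸ J) →* MulAut S := (MulAut.congr E).toMonoidHom.comp (MulAut.conjNormal (H := B))
  have hcB : Subgroup.center ↥B = ⊥ := by
    rw [eq_bot_iff]
    intro b hb
    have h1 : E b ∈ Subgroup.center S := by
      rw [Subgroup.mem_center_iff]
      intro s
      obtain ⟨b', rfl⟩ := E.surjective s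
      rw [← map_mul, ← map_mul, (Subgroup.mem_center_iff.1 hb) b']
    rw [hcS, Subgroup.mem_bot] at h1
    rw [Subgroup.mem_bot]
    exact E.injective (h1.trans (map_one E).symm)
  have hinj : Function.Injective Φ := by
    rw [injective_iff_map_eq_one]
    intro a ha
    have h1 : MulAut.conjNormal (H := B) a = 1 := by
      have : (MulAut.congr E) (MulAut.conjNormal (H := B) a) = 1 := ha
      exact (MulAut.congr E).injective (this.trans (map_one _).symm)
    obtain ⟨c, rfl⟩ := QuotientGroup.mk'_surjective J a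
    have h2 : ∀ b : ↥B, (QuotientGroup.mk' J c) * b.1 * (QuotientGroup.mk' J c)⁻¹ = b.1 := by
      intro b
      have := congrArg (fun g : MulAut ↥B => ((g b : ↥B) : X ⧸ J)) h1
      simpa [MulAut.conjNormal_apply] using this
    have hact : ∀ k ∈ K, c * k * c⁻¹ * k⁻¹ ∈ J := by
      intro k hk
      let b : ↥B := ⟨QuotientGroup.mk' J k, ⟨_, hk, rfl⟩⟩
      have h3 := h2 b
      have h4 : QuotientGroup.mk' J (c * k * c⁻¹ * k⁻¹) = 1 := by
        rw [map_mul, map_mul, map_mul, map_inv, map_inv]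
        show (QuotientGroup.mk' J c) * b.1 * (QuotientGroup.mk' J c)⁻¹ * b.1⁻¹ = 1
        rw [h3, mul_inv_cancel]
      exact (QuotientGroup.eq_one_iff _).1 h4
    have hle : commutator ↥K ≤ (Subgroup.centralizer ({c} : Set X)).comap K.subtype := by
      rw [commutator_def, Subgroup.commutator_le]
      intro a _ b _
      rw [Subgroup.mem_comap, Subgroup.mem_centralizer_singleton_iff]
      have hea := hact a.1 a.2
      have hfb := hact b.1 b.2
      set e := c * a.1 * c⁻¹ * a.1⁻¹ with he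
      set g := c * b.1 * c⁻¹ * b.1⁻¹ with hg
      have e1 : c * a.1 * c⁻¹ = e * a.1 := by rw [he]; group
      have e2 : c * b.1 * c⁻¹ = g * b.1 := by rw [hg]; group
      have e3 := comm_central (hJc e hea a.1 a.2) (hJc e hea b.1 b.2) (hJc g hfb a.1 a.2) (hJc g hfb b.1 b.2)
        (hJc e hea g (hJK hfb))
      have e4 : c * (a.1 * b.1 * a.1⁻¹ * b.1⁻¹) * c⁻¹ = a.1 * b.1 * a.1⁻¹ * b.1⁻¹ := by
        calc c * (a.1 * b.1 * a.1⁻¹ * b.1⁻¹) * c⁻¹
            = (c * a.1 * c⁻¹) * (c * b.1 * c⁻¹) * (c * a.1 * c⁻¹)⁻¹ * (c * b.1 * c⁻¹)⁻¹ := by group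
          _ = (e * a.1) * (g * b.1) * (e * a.1)⁻¹ * (g * b.1)⁻¹ := by rw [e1, e2]
          _ = _ := e3
      have e5 : ((⁅a, b⁆ : ↥K) : X) = a.1 * b.1 * a.1⁻¹ * b.1⁻¹ := rfl
      show ((⁅a, b⁆ : ↥K) : X) * c = c * ((⁅a, b⁆ : ↥K) : X)
      rw [e5]
      exact (conj_eq_iff_comm.1 e4).eq.symm
    have hcomm : ∀ k ∈ K, Commute c k := by
      intro k hk
      have h1 : (⟨k, hk⟩ : ↥K) ∈ commutator ↥K := by rw [hp]; trivial
      have h2 := hle h1
      rw [Subgroup.mem_comap, Subgroup.mem_centralizer_singleton_iff] at h2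
      exact h2.symm
    have hcK : c ∈ K := hC c hcomm
    let bc : ↥B := ⟨QuotientGroup.mk' J c, ⟨_, hcK, rfl⟩⟩
    have hbc : bc ∈ Subgroup.center ↥B := by
      rw [Subgroup.mem_center_iff]
      intro b
      apply Subtype.ext
      show b.1 * (QuotientGroup.mk' J c) = (QuotientGroup.mk' J c) * b.1
      have := h2 b
      rw [mul_inv_eq_iff_eq_mul] at this
      exact this.symm
    rw [hcB, Subgroup.mem_bot] at hbc
    exact congrArg Subtype.val hbc
  haveI : Finite (MulAut S) := Finite.of_injective (fun e : MulAut S => (e : S → S)) DFunLike.coe_injective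
  have hcd : Nat.card (MulAut S) ≤ Nat.card (X ⧸ J) := by
    have hJpos : 0 < Nat.card ↥J := Nat.card_pos
    have h2 : Nat.card ↥K = Nat.card S * Nat.card ↥J := by
      have h3 := Subgroup.card_eq_card_quotient_mul_card_subgroup f.ker
      have h4 : Nat.card (↥K ⧸ f.ker) = Nat.card S :=
        Nat.card_congr (QuotientGroup.quotientKerEquivOfSurjective f hfs).toEquiv
      have h5 : f.ker = J.subgroupOf K := by
        ext k
        rw [MonoidHom.mem_ker, Subgroup.mem_subgroupOf, hfk]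
      have h6 : Nat.card ↥f.ker = Nat.card ↥J := by
        rw [h5]
        exact Nat.card_congr (Subgroup.subgroupOfEquivOfLe hJK).toEquiv
      rw [h3, h4, h6]
    have h3 : Nat.card X = Nat.card ↥K * K.index := (Subgroup.card_mul_index K).symm
    have h5 : Nat.card X = Nat.card (X ⧸ J) * Nat.card ↥J := Subgroup.card_eq_card_quotient_mul_card_subgroup J
    have h6 : Nat.card (X ⧸ J) * Nat.card ↥J = (K.index * Nat.card S) * Nat.card ↥J := by
      rw [← h5, h3, h2]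
      ring
    have h7 := Nat.eq_of_mul_eq_mul_right hJpos h6
    rw [hcard, h7]
  exact ⟨MulEquiv.ofBijective Φ (hinj.bijective_of_nat_card_le hcd)⟩

section main

variable {G : Type*} [Group G]

/-- The joint centralizer. -/
abbrev KT (L : Subgroup G) (d₁ d₂ d₃ : G) : Subgroup G := L ⊓ Subgroup.centralizer ({d₁, d₂, d₃} : Set G)

/-- The centralizer of the product. -/
abbrev CT (L : Subgroup G) (d₁ d₂ d₃ : G) : Subgroup G := L ⊓ Subgroup.centralizer ({d₁ * d₂ * d₃} : Set G)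

/-- The four-group. -/
abbrev ET (d₁ d₂ d₃ : G) : Subgroup G := Subgroup.closure ({d₁ * d₂, d₁ * d₃} : Set G)

/-- The hypotheses. -/
structure Hyp3 (D : Set G) (L : Subgroup G) (d₁ d₂ d₃ x : G) : Prop where
  hDL : ∀ a ∈ D, a ∉ L
  hL2 : ∀ a b, a ∉ L → b ∉ L → a * b ∈ L
  hconj : ∀ (g a : G), a ∈ D → g * a * g⁻¹ ∈ D
  hFP : ∀ a ∈ D, ∀ b ∈ D, Commute a b → a ≠ b → ∀ a' ∈ D, ∀ b' ∈ D, Commute a' b' → a' ≠ b' →
    a * b = a' * b' → a = a' ∨ a = b'
  hfp3 : ∀ (j : G) (l l' : List G), PMl D 3 j l → PMl D 3 j l' → ∀ x : G, x ∈ l ↔ x ∈ l'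
  htr : ∀ σ : Equiv.Perm (Fin 3), ∃ g : G, ∀ i, g * (![d₁, d₂, d₃] i) * g⁻¹ = ![d₁, d₂, d₃] (σ i)
  h₁ : d₁ ∈ D
  h₂ : d₂ ∈ D
  h₃ : d₃ ∈ D
  hx : x ∈ D
  n12 : d₁ ≠ d₂
  n13 : d₁ ≠ d₃
  n23 : d₂ ≠ d₃
  c12 : Commute d₁ d₂
  c13 : Commute d₁ d₃
  c23 : Commute d₂ d₃
  c1x : Commute d₁ x
  c2x : Commute d₂ x
  c3x : Commute d₃ x
  n1x : d₁ ≠ x
  n2x : d₂ ≠ x
  n3x : d₃ ≠ x

variable {L : Subgroup G} {d₁ d₂ d₃ x : G} {D : Set G}

theorem mem_KT {c : G} : c ∈ KT L d₁ d₂ d₃ ↔ c ∈ L ∧ c * d₁ * c⁻¹ = d₁ ∧ c * d₂ * c⁻¹ = d₂ ∧ c * d₃ * c⁻¹ = d₃ := by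
  rw [Subgroup.mem_inf, Subgroup.mem_centralizer_iff]
  constructor
  · rintro ⟨h1, h2⟩
    refine ⟨h1, conj_eq_iff_comm.2 ?_, conj_eq_iff_comm.2 ?_, conj_eq_iff_comm.2 ?_⟩
    · exact (h2 d₁ (by simp)).symm
    · exact (h2 d₂ (by simp)).symm
    · exact (h2 d₃ (by simp)).symm
  · rintro ⟨h1, h2, h3, h4⟩
    refine ⟨h1, ?_⟩
    rintro y (rfl | rfl | hy)
    · exact (conj_eq_iff_comm.1 h2).eq.symm
    · exact (conj_eq_iff_comm.1 h3).eq.symm
    · rw [Set.mem_singleton_iff.1 hy]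
      exact (conj_eq_iff_comm.1 h4).eq.symm

theorem mem_CT {c : G} : c ∈ CT L d₁ d₂ d₃ ↔ c ∈ L ∧ c * (d₁ * d₂ * d₃) * c⁻¹ = d₁ * d₂ * d₃ := by
  rw [Subgroup.mem_inf, Subgroup.mem_centralizer_singleton_iff]
  constructor
  · rintro ⟨h1, h2⟩
    exact ⟨h1, conj_eq_iff_comm.2 h2⟩
  · rintro ⟨h1, h2⟩
    exact ⟨h1, (conj_eq_iff_comm.1 h2).eq⟩

theorem KT_le_CT : KT L d₁ d₂ d₃ ≤ CT L d₁ d₂ d₃ := by
  intro c hc
  obtain ⟨h1, h2, h3, h4⟩ := mem_KT.1 hc
  refine mem_CT.2 ⟨h1, ?_⟩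
  have e : c * (d₁ * d₂ * d₃) * c⁻¹ = (c * d₁ * c⁻¹) * (c * d₂ * c⁻¹) * (c * d₃ * c⁻¹) := by group
  rw [e, h2, h3, h4]

theorem conj_inj {c a b : G} (h : c * a * c⁻¹ = c * b * c⁻¹) : a = b := by
  have := congrArg (fun y => c⁻¹ * y * c) h
  simpa [mul_assoc] using this

/-- An element centralizing the product permutes the factors. -/
theorem perm_T (h : Hyp3 D L d₁ d₂ d₃ x) {c : G} (hc : c ∈ CT L d₁ d₂ d₃) {d : G} (hd : d = d₁ ∨ d = d₂ ∨ d = d₃) :
    c * d * c⁻¹ = d₁ ∨ c * d * c⁻¹ = d₂ ∨ c * d * c⁻¹ = d₃ := by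
  have hl : PMl D 3 (d₁ * d₂ * d₃) [d₁, d₂, d₃] := by
    refine ⟨?_, rfl, ?_, ?_, ?_⟩
    · simp [h.n12, h.n13, h.n23]
    · intro a ha
      simp only [List.mem_cons, List.not_mem_nil, or_false] at ha
      rcases ha with rfl | rfl | rfl
      · exact h.h₁
      · exact h.h₂
      · exact h.h₃
    · intro a ha b hb
      simp only [List.mem_cons, List.not_mem_nil, or_false] at ha hb
      rcases ha with rfl | rfl | rfl <;> rcases hb with rfl | rfl | rfl <;>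
        first
          | exact Commute.refl _
          | exact h.c12
          | exact h.c13
          | exact h.c23
          | exact h.c12.symm
          | exact h.c13.symm
          | exact h.c23.symm
    · simp [mul_assoc]
  have hl' : PMl D 3 (d₁ * d₂ * d₃) [c * d₁ * c⁻¹, c * d₂ * c⁻¹, c * d₃ * c⁻¹] := by
    refine ⟨?_, rfl, ?_, ?_, ?_⟩
    · have a1 : c * d₁ * c⁻¹ ≠ c * d₂ * c⁻¹ := fun k => h.n12 (conj_inj k)
      have a2 : c * d₁ * c⁻¹ ≠ c * d₃ * c⁻¹ := fun k => h.n13 (conj_inj k)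
      have a3 : c * d₂ * c⁻¹ ≠ c * d₃ * c⁻¹ := fun k => h.n23 (conj_inj k)
      simp only [List.nodup_cons, List.mem_cons, List.not_mem_nil, or_false, not_or, List.nodup_nil, and_true, not_false_iff]
      exact ⟨⟨a1, a2⟩, a3⟩
    · intro a ha
      simp only [List.mem_cons, List.not_mem_nil, or_false] at ha
      rcases ha with rfl | rfl | rfl
      · exact h.hconj _ _ h.h₁
      · exact h.hconj _ _ h.h₂
      · exact h.hconj _ _ h.h₃
    · intro a ha b hb
      simp only [List.mem_cons, List.not_mem_nil, or_false] at ha hb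
      rcases ha with rfl | rfl | rfl <;> rcases hb with rfl | rfl | rfl <;>
        first
          | exact Commute.refl _
          | exact conj_comm h.c12
          | exact conj_comm h.c13
          | exact conj_comm h.c23
          | exact conj_comm h.c12.symm
          | exact conj_comm h.c13.symm
          | exact conj_comm h.c23.symm
    · have e := (mem_CT.1 hc).2
      simp only [List.prod_cons, List.prod_nil, mul_one]
      rw [← e]
      group
  have hmem : c * d * c⁻¹ ∈ [c * d₁ * c⁻¹, c * d₂ * c⁻¹, c * d₃ * c⁻¹] := by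
    rcases hd with rfl | rfl | rfl <;> simp
  have := (h.hfp3 _ _ _ hl hl' _).2 hmem
  simpa using this

theorem y_mem (h : Hyp3 D L d₁ d₂ d₃ x) {d : G} (hd : d ∈ D) (h1 : Commute d₁ d) (h2 : Commute d₂ d) (h3 : Commute d₃ d)
    (hx1 : Commute d x) : d * x ∈ KT L d₁ d₂ d₃ := by
  refine mem_KT.2 ⟨h.hL2 _ _ (h.hDL _ hd) (h.hDL _ h.hx), ?_, ?_, ?_⟩
  · apply conj_eq_iff_comm.2
    exact h1.symm.mul_left h.c1x.symm
  · apply conj_eq_iff_comm.2
    exact h2.symm.mul_left h.c2x.symm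
  · apply conj_eq_iff_comm.2
    exact h3.symm.mul_left h.c3x.symm

/-- An element of `CT` centralizing `d x` fixes `d`. -/
theorem fix_of_comm (h : Hyp3 D L d₁ d₂ d₃ x) {c d : G} (hc : c ∈ CT L d₁ d₂ d₃) (hd : d ∈ D)
    (hdT : d = d₁ ∨ d = d₂ ∨ d = d₃) (hdx : Commute d x) (hne : d ≠ x) (hcc : Commute c (d * x)) : c * d * c⁻¹ = d := by
  have e := conj_eq_iff_comm.2 hcc
  rw [AutPair.conj_mul] at e
  have hn : c * d * c⁻¹ ≠ c * x * c⁻¹ := fun k => hne (conj_inj k)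
  rcases h.hFP _ (h.hconj c d hd) _ (h.hconj c x h.hx) (conj_comm hdx) hn d hd x h.hx hdx hne e with k | k
  · exact k
  · exfalso
    rcases perm_T h hc hdT with k1 | k1 | k1
    · exact h.n1x (k1.symm.trans k)
    · exact h.n2x (k1.symm.trans k)
    · exact h.n3x (k1.symm.trans k)

/-- The centralizer of `K` in `C` lies in `K`. -/
theorem centralizer_KT (h : Hyp3 D L d₁ d₂ d₃ x) {c : G} (hc : c ∈ CT L d₁ d₂ d₃)
    (hcomm : ∀ k ∈ KT L d₁ d₂ d₃, Commute c k) : c ∈ KT L d₁ d₂ d₃ := by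
  refine mem_KT.2 ⟨(mem_CT.1 hc).1, ?_, ?_, ?_⟩
  · exact fix_of_comm h hc h.h₁ (Or.inl rfl) h.c1x h.n1x
      (hcomm _ (y_mem h h.h₁ (Commute.refl _) h.c12.symm h.c13.symm h.c1x))
  · exact fix_of_comm h hc h.h₂ (Or.inr (Or.inl rfl)) h.c2x h.n2x
      (hcomm _ (y_mem h h.h₂ h.c12 (Commute.refl _) h.c23.symm h.c2x))
  · exact fix_of_comm h hc h.h₃ (Or.inr (Or.inr rfl)) h.c3x h.n3x
      (hcomm _ (y_mem h h.h₃ h.c13 h.c23 (Commute.refl _) h.c3x))

theorem comm_of_mem_KT {k d : G} (hk : k * d * k⁻¹ = d) : Commute k d := conj_eq_iff_comm.1 hk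

theorem ET_le_KT (h : Hyp3 D L d₁ d₂ d₃ x) : ET d₁ d₂ d₃ ≤ KT L d₁ d₂ d₃ := by
  rw [Subgroup.closure_le]
  rintro y (rfl | hy)
  · refine mem_KT.2 ⟨h.hL2 _ _ (h.hDL _ h.h₁) (h.hDL _ h.h₂), ?_, ?_, ?_⟩
    · exact conj_eq_iff_comm.2 ((Commute.refl d₁).mul_left h.c12.symm)
    · exact conj_eq_iff_comm.2 (h.c12.mul_left (Commute.refl d₂))
    · exact conj_eq_iff_comm.2 (h.c13.mul_left h.c23)
  · rw [Set.mem_singleton_iff.1 hy]
    refine mem_KT.2 ⟨h.hL2 _ _ (h.hDL _ h.h₁) (h.hDL _ h.h₃), ?_, ?_, ?_⟩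
    · exact conj_eq_iff_comm.2 ((Commute.refl d₁).mul_left h.c13.symm)
    · exact conj_eq_iff_comm.2 (h.c12.mul_left h.c23.symm)
    · exact conj_eq_iff_comm.2 (h.c13.mul_left (Commute.refl d₃))

/-- The joint centralizer is the centralizer of the four-group. -/
theorem KT_eq (h : Hyp3 D L d₁ d₂ d₃ x) :
    KT L d₁ d₂ d₃ = L ⊓ Subgroup.centralizer ((ET d₁ d₂ d₃ : Subgroup G) : Set G) := by
  apply le_antisymm
  · intro c hc
    obtain ⟨h1, h2, h3, h4⟩ := mem_KT.1 hc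
    refine Subgroup.mem_inf.2 ⟨h1, ?_⟩
    have : ET d₁ d₂ d₃ ≤ Subgroup.centralizer ({c} : Set G) := by
      rw [Subgroup.closure_le]
      rintro y (rfl | hy)
      · rw [SetLike.mem_coe, Subgroup.mem_centralizer_singleton_iff]
        have a := (comm_of_mem_KT h2).mul_right (comm_of_mem_KT h3)
        exact a.symm.eq
      · rw [Set.mem_singleton_iff.1 hy, SetLike.mem_coe, Subgroup.mem_centralizer_singleton_iff]
        have a := (comm_of_mem_KT h2).mul_right (comm_of_mem_KT h4)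
        exact a.symm.eq
    rw [Subgroup.mem_centralizer_iff]
    intro y hy
    have := this hy
    rw [Subgroup.mem_centralizer_singleton_iff] at this
    exact this
  · intro c hc
    obtain ⟨h1, h2⟩ := Subgroup.mem_inf.1 hc
    have e1 : c * (d₁ * d₂) * c⁻¹ = d₁ * d₂ := by
      apply conj_eq_iff_comm.2
      exact ((Subgroup.mem_centralizer_iff.1 h2) _ (Subgroup.subset_closure (by simp))).symm
    have e2 : c * (d₁ * d₃) * c⁻¹ = d₁ * d₃ := by
      apply conj_eq_iff_comm.2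
      exact ((Subgroup.mem_centralizer_iff.1 h2) _ (Subgroup.subset_closure (by simp))).symm
    rw [AutPair.conj_mul] at e1 e2
    have n12 : c * d₁ * c⁻¹ ≠ c * d₂ * c⁻¹ := fun k => h.n12 (conj_inj k)
    have n13 : c * d₁ * c⁻¹ ≠ c * d₃ * c⁻¹ := fun k => h.n13 (conj_inj k)
    have a1 := h.hFP _ (h.hconj c _ h.h₁) _ (h.hconj c _ h.h₂) (conj_comm h.c12) n12 _ h.h₁ _ h.h₂ h.c12 h.n12 e1
    have a2 := h.hFP _ (h.hconj c _ h.h₁) _ (h.hconj c _ h.h₃) (conj_comm h.c13) n13 _ h.h₁ _ h.h₃ h.c13 h.n13 e2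
    have f1 : c * d₁ * c⁻¹ = d₁ := by
      rcases a1 with a1 | a1
      · exact a1
      · rcases a2 with a2 | a2
        · exact a2
        · exact (h.n23 (a1.symm.trans a2)).elim
    rw [f1] at e1 e2
    exact mem_KT.2 ⟨h1, f1, mul_left_cancel e1, mul_left_cancel e2⟩

/-- The quotient by the joint centralizer. -/
theorem quot_T [Finite G] (h : Hyp3 D L d₁ d₂ d₃ x) :
    ∃ _ : ((KT L d₁ d₂ d₃).subgroupOf (CT L d₁ d₂ d₃)).Normal,
      Nonempty (↥(CT L d₁ d₂ d₃) ⧸ (KT L d₁ d₂ d₃).subgroupOf (CT L d₁ d₂ d₃) ≃* Equiv.Perm (Fin 3)) := by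
  obtain ⟨hle, hn, ⟨eS⟩⟩ := Cfsg.Agent.Lib.Fischer.M23.Explicit.quot_S3 h.h₁ h.h₂ h.h₃ h.n12 h.n13 h.n23 h.c12 h.c13 h.c23
    h.hconj h.hfp3 h.htr
  set K₀ := Subgroup.centralizer ({d₁, d₂, d₃} : Set G) with hK₀
  set C₀ := Subgroup.centralizer ({d₁ * d₂ * d₃} : Set G) with hC₀
  let ι : ↥(CT L d₁ d₂ d₃) →* ↥C₀ := Subgroup.inclusion inf_le_right
  let θ : ↥(CT L d₁ d₂ d₃) →* Equiv.Perm (Fin 3) := eS.toMonoidHom.comp ((QuotientGroup.mk' (K₀.subgroupOf C₀)).comp ι)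
  have hd₁K : d₁ ∈ K₀ := by
    rw [hK₀, Subgroup.mem_centralizer_iff]
    rintro y (rfl | rfl | hy)
    · exact Commute.refl _
    · exact h.c12.symm
    · rw [Set.mem_singleton_iff.1 hy]
      exact h.c13.symm
  have hθs : Function.Surjective θ := by
    intro σ
    obtain ⟨q, rfl⟩ := eS.surjective σ
    obtain ⟨c, rfl⟩ := QuotientGroup.mk'_surjective _ q
    by_cases hc : c.1 ∈ L
    · exact ⟨⟨c.1, Subgroup.mem_inf.2 ⟨hc, c.2⟩⟩, rfl⟩
    · have hd₁C : d₁ ∈ C₀ := hle hd₁K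
      refine ⟨⟨c.1 * d₁, Subgroup.mem_inf.2 ⟨h.hL2 _ _ hc (h.hDL _ h.h₁), mul_mem c.2 hd₁C⟩⟩, ?_⟩
      show eS (QuotientGroup.mk' (K₀.subgroupOf C₀) (c * ⟨d₁, hd₁C⟩)) = eS (QuotientGroup.mk' (K₀.subgroupOf C₀) c)
      congr 1
      rw [map_mul]
      have : QuotientGroup.mk' (K₀.subgroupOf C₀) ⟨d₁, hd₁C⟩ = 1 := by
        rw [QuotientGroup.mk'_apply, QuotientGroup.eq_one_iff, Subgroup.mem_subgroupOf]
        exact hd₁K
      rw [this, mul_one]
  have hθk : θ.ker = (KT L d₁ d₂ d₃).subgroupOf (CT L d₁ d₂ d₃) := by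
    ext c
    rw [MonoidHom.mem_ker, Subgroup.mem_subgroupOf]
    have e1 : θ c = 1 ↔ ι c ∈ K₀.subgroupOf C₀ := by
      constructor
      · intro k
        have k2 : eS (QuotientGroup.mk' (K₀.subgroupOf C₀) (ι c)) = eS 1 := k.trans (map_one eS).symm
        exact (QuotientGroup.eq_one_iff _).1 (eS.injective k2)
      · intro k
        show eS (QuotientGroup.mk' (K₀.subgroupOf C₀) (ι c)) = 1
        have : QuotientGroup.mk' (K₀.subgroupOf C₀) (ι c) = 1 := (QuotientGroup.eq_one_iff _).2 k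
        rw [this, map_one]
    rw [e1, Subgroup.mem_subgroupOf]
    constructor
    · intro k
      exact Subgroup.mem_inf.2 ⟨(Subgroup.mem_inf.1 c.2).1, k⟩
    · intro k
      exact (Subgroup.mem_inf.1 k).2
  have hN : ((KT L d₁ d₂ d₃).subgroupOf (CT L d₁ d₂ d₃)).Normal := by
    rw [← hθk]
    exact MonoidHom.normal_ker θ
  refine ⟨hN, ⟨?_⟩⟩
  exact (QuotientGroup.quotientMulEquivOfEq hθk.symm).trans (QuotientGroup.quotientKerEquivOfSurjective θ hθs)

local notation "K" => KT L d₁ d₂ d₃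
local notation "C" => CT L d₁ d₂ d₃
local notation "E" => ET d₁ d₂ d₃

/-- **The main theorem.** -/
theorem main [Finite G] (h : Hyp3 D L d₁ d₂ d₃ x) (hq : IsQuasisimple ↥(K))
    (hcen : (Subgroup.center ↥(K)).map (K).subtype = E)
    {S : Type} [Group S] (hcS : Subgroup.center S = ⊥) (f : ↥(K) →* S) (hfs : Function.Surjective f)
    (hfk : ∀ k : ↥(K), f k = 1 ↔ k.1 ∈ E) (hcard : Nat.card (MulAut S) = 6 * Nat.card S) :
    (generalizedFittingSubgroup ↥(C)).map (C).subtype = K ∧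
    K = L ⊓ Subgroup.centralizer ((E : Subgroup G) : Set G) ∧
    (∃ _ : ((E).subgroupOf K).Normal, Nonempty (↥(K) ⧸ (E).subgroupOf K ≃* S)) ∧
    (∃ _ : ((K).subgroupOf C).Normal, Nonempty (↥(C) ⧸ (K).subgroupOf C ≃* Equiv.Perm (Fin 3))) ∧
    E ≤ C ∧
    ∃ _ : ((E).subgroupOf C).Normal, Nonempty (↥(C) ⧸ (E).subgroupOf C ≃* MulAut S) := by
  obtain ⟨hKn, ⟨eS⟩⟩ := quot_T h
  have hle : K ≤ C := KT_le_CT
  have hEK : E ≤ K := ET_le_KT h
  let eK : ↥((K).subgroupOf C) ≃* ↥(K) := Subgroup.subgroupOfEquivOfLe hle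
  have hq' : IsQuasisimple ↥((K).subgroupOf C) := Cfsg.Agent.Lib.Components.FStar.isQuasisimple_congr eK.symm hq
  have hfstar : generalizedFittingSubgroup ↥(C) = (K).subgroupOf C := by
    apply fstar_eq_of_quasi _ hKn hq'
    intro c hc
    rw [Subgroup.mem_subgroupOf]
    apply centralizer_KT h c.2
    intro k hk
    have := Subgroup.mem_centralizer_iff.1 hc ⟨k, hle hk⟩ (by rw [SetLike.mem_coe, Subgroup.mem_subgroupOf]; exact hk)
    exact (congrArg Subtype.val this).symm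
  have hEc : ∀ e ∈ E, ∀ k ∈ K, Commute e k := by
    intro e he k hk
    rw [← hcen] at he
    obtain ⟨e', he', rfl⟩ := he
    have := (Subgroup.mem_center_iff.1 he') ⟨k, hk⟩
    exact (congrArg Subtype.val this).symm
  have hmemE : ∀ e : G, e ∈ E ↔ ∃ hk : e ∈ K, (⟨e, hk⟩ : ↥(K)) ∈ Subgroup.center ↥(K) := by
    intro e
    rw [← hcen]
    constructor
    · rintro ⟨e', he', rfl⟩
      exact ⟨e'.2, he'⟩
    · rintro ⟨hk, hc⟩
      exact ⟨⟨e, hk⟩, hc, rfl⟩
  have hEnC : ((E).subgroupOf C).Normal := by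
    refine ⟨fun e he c => ?_⟩
    rw [Subgroup.mem_subgroupOf] at he ⊢
    have hkN : c.1 * e.1 * c.1⁻¹ ∈ K := by
      have := hKn.conj_mem e (by rw [Subgroup.mem_subgroupOf]; exact hEK he) c
      rw [Subgroup.mem_subgroupOf] at this
      exact this
    refine (hmemE _).2 ⟨hkN, ?_⟩
    rw [Subgroup.mem_center_iff]
    rintro ⟨k, hk⟩
    apply Subtype.ext
    show k * (c.1 * e.1 * c.1⁻¹) = (c.1 * e.1 * c.1⁻¹) * k
    have hk2 : c.1⁻¹ * k * c.1 ∈ K := by
      have := hKn.conj_mem ⟨k, hle hk⟩ (by rw [Subgroup.mem_subgroupOf]; exact hk) c⁻¹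
      rw [Subgroup.mem_subgroupOf] at this
      simpa using this
    have e1 := (hEc _ he _ hk2).eq
    calc k * (c.1 * e.1 * c.1⁻¹) = c.1 * ((c.1⁻¹ * k * c.1) * e.1) * c.1⁻¹ := by group
      _ = c.1 * (e.1 * (c.1⁻¹ * k * c.1)) * c.1⁻¹ := by rw [e1]
      _ = _ := by group
  have hEnK : ((E).subgroupOf K).Normal := by
    refine ⟨fun e he c => ?_⟩
    rw [Subgroup.mem_subgroupOf] at he ⊢
    have := (hEc _ he _ c.2).symm
    have e1 : c.1 * e.1 * c.1⁻¹ = e.1 := conj_eq_iff_comm.2 this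
    show c.1 * e.1 * c.1⁻¹ ∈ E
    rw [e1]
    exact he
  refine ⟨?_, KT_eq h, ⟨hEnK, ⟨?_⟩⟩, ⟨hKn, ⟨eS⟩⟩, hEK.trans hle, ⟨hEnC, ?_⟩⟩
  · rw [hfstar, Subgroup.map_subgroupOf_eq_of_le hle]
  · have hker : (E).subgroupOf K = f.ker := by
      ext k
      rw [MonoidHom.mem_ker, Subgroup.mem_subgroupOf, hfk]
    exact (QuotientGroup.quotientMulEquivOfEq hker).trans (QuotientGroup.quotientKerEquivOfSurjective f hfs)
  · -- the automorphism group
    have hidx : ((K).subgroupOf C).index = 6 := by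
      have h1 : ((K).subgroupOf C).index = Nat.card (↥(C) ⧸ (K).subgroupOf C) := rfl
      rw [h1, Nat.card_congr eS.toEquiv, Nat.card_perm]
      simp [Nat.factorial]
    refine aut_iso (X := ↥(C)) ((K).subgroupOf C) ((E).subgroupOf C) ?_ ?_ ?_ ?_ hcS
      (f.comp eK.toMonoidHom) (hfs.comp eK.surjective) ?_ ?_
    · intro e he
      rw [Subgroup.mem_subgroupOf] at he ⊢
      exact hEK he
    · intro e he k hk
      rw [Subgroup.mem_subgroupOf] at he hk
      exact Subtype.ext (hEc _ he _ hk).eq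
    · have hp : commutator ↥((K).subgroupOf C) = ⊤ := hq'.1.commutator_eq_top
      exact hp
    · intro c hc
      rw [Subgroup.mem_subgroupOf]
      apply centralizer_KT h c.2
      intro k hk
      have := hc ⟨k, hle hk⟩ (by rw [Subgroup.mem_subgroupOf]; exact hk)
      exact congrArg Subtype.val this
    · intro k
      rw [Subgroup.mem_subgroupOf]
      exact hfk (eK k)
    · rw [hidx, hcard]

end main

end Cfsg.Agent.Lib.Fischer.M24.AutTriple
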