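/-
The triple centralizer in the derived group of the explicit `Fi24`: `C_L(d₁d₂d₃)/E` is the automorphism group of `U₆(2)`.
-/
import Mathlib
import Cfsg.Agent.Lib.Fischer.M24.AutTriple
import Cfsg.Agent.Lib.Fischer.M24.AutPairE
import Cfsg.Agent.S0815

set_option autoImplicit false
set_option maxRecDepth 100000

namespace Cfsg.Agent.Lib.Fischer.M24.AutTripleE

open Cfsg Cfsg.Agent.Lib.Fischer.Basic Cfsg.Agent.Lib.Fischer.Local
open Cfsg.Agent.Lib.Fischer.M24.Explicit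
open Cfsg.Agent.Lib.Fischer.M24.AutPair (conj_eq_iff_comm conj_comm)
open Cfsg.Agent.Lib.Fischer.M24.AutPairE (D2_not_F2 L0_H2 π2_one a1_mem)
open Cfsg.Agent.Lib.Fischer.M24.AutTriple
open Cfsg.Agent.Lib.Fischer.M22.Explicit (PMl PMl_map_iff same_map mem_center_congr)

/-- Transport of the hypotheses. -/
theorem Hyp3_of_iso {G G' : Type*} [Group G] [Group G'] (e : G ≃* G') {D : Set G} {D' : Set G'} {L : Subgroup G}
    {L' : Subgroup G'} (hD : ∀ a, a ∈ D ↔ e a ∈ D') (hL : ∀ a, a ∈ L ↔ e a ∈ L') {d₁ d₂ d₃ x : G}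
    (h : Hyp3 D' L' (e d₁) (e d₂) (e d₃) (e x)) : Hyp3 D L d₁ d₂ d₃ x := by
  have cm : ∀ {a b : G}, Commute (e a) (e b) → Commute a b := fun k => e.injective (by rw [map_mul, map_mul]; exact k)
  refine ⟨?_, ?_, ?_, ?_, ?_, ?_, (hD _).2 h.h₁, (hD _).2 h.h₂, (hD _).2 h.h₃, (hD _).2 h.hx,
    fun k => h.n12 (by rw [k]), fun k => h.n13 (by rw [k]), fun k => h.n23 (by rw [k]),
    cm h.c12, cm h.c13, cm h.c23, cm h.c1x, cm h.c2x, cm h.c3x,
    fun k => h.n1x (by rw [k]), fun k => h.n2x (by rw [k]), fun k => h.n3x (by rw [k])⟩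
  · intro a ha k
    exact h.hDL _ ((hD a).1 ha) ((hL a).1 k)
  · intro a b ha hb
    apply (hL _).2
    rw [map_mul]
    exact h.hL2 _ _ (fun k => ha ((hL a).2 k)) (fun k => hb ((hL b).2 k))
  · intro g a ha
    apply (hD _).2
    rw [map_mul, map_mul, map_inv]
    exact h.hconj _ _ ((hD a).1 ha)
  · intro a ha b hb c n a' ha' b' hb' c' n' p
    have := h.hFP _ ((hD a).1 ha) _ ((hD b).1 hb) (c.map e) (fun k => n (e.injective k)) _ ((hD a').1 ha') _ ((hD b').1 hb')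
      (c'.map e) (fun k => n' (e.injective k)) (by rw [← map_mul, ← map_mul, p])
    exact this.imp (fun k => e.injective k) (fun k => e.injective k)
  · intro j l l' h1 h2
    exact same_map e (h.hfp3 _ _ _ ((PMl_map_iff e hD).1 h1) ((PMl_map_iff e hD).1 h2))
  · intro σ
    obtain ⟨g, hg⟩ := h.htr σ
    refine ⟨e.symm g, fun i => e.injective ?_⟩
    have a : ∀ i, e (![d₁, d₂, d₃] i) = ![e d₁, e d₂, e d₃] i := by
      intro i
      fin_cases i <;> rfl
    rw [map_mul, map_mul, map_inv, MulEquiv.apply_symm_apply, a, a]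
    exact hg i

/-- The hypotheses on the explicit group. -/
theorem Hyp3z : Hyp3 D2 F2 z2 (L 0) (L 2) (L 4) := by
  have hc02 : Commute z2 (L 0) := L0_mem_Dlt.2.2
  have hc22 : Commute z2 (L 2) := L2_mem_Dlt.2.2
  refine ⟨fun a ha => D2_not_F2 ha, fun a b ha hb => mul_F2_of ha hb, D2_conj, ?_, fp3_2, ?_, z2_mem, L0_mem_Dlt.1, L2_mem_Dlt.1,
    L4_mem_Dlt.1, L0_mem_Dlt.2.1.symm, L2_mem_Dlt.2.1.symm, L0_ne_L2, hc02, hc22, comm_L0_L2, L4_mem_Dlt.2.2, comm_L0_L4, comm_L2_L4,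
    L4_mem_Dlt.2.1.symm, L0_ne_L4, L2_ne_L4⟩
  · intro a ha b hb c n a' ha' b' hb' c' _ p
    rcases FP2_2 ha hb ha' hb' c c' n p with ⟨k, _⟩ | ⟨_, k⟩
    · exact Or.inl k.symm
    · exact Or.inr k.symm
  · intro σ
    set d : Fin 3 → G2 := ![z2, L 0, L 2] with hd
    have hmemD : ∀ i, d i ∈ D2 := by
      intro i
      fin_cases i
      · exact z2_mem
      · exact L0_mem_Dlt.1
      · exact L2_mem_Dlt.1
    have hinj : Function.Injective d := by
      intro i i' h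
      have n01 : z2 ≠ L 0 := L0_mem_Dlt.2.1.symm
      have n02 : z2 ≠ L 2 := L2_mem_Dlt.2.1.symm
      have n12 : L 0 ≠ L 2 := L0_ne_L2
      fin_cases i <;> fin_cases i' <;> first
        | rfl
        | exact absurd h n01
        | exact absurd h n02
        | exact absurd h n12
        | exact absurd h n01.symm
        | exact absurd h n02.symm
        | exact absurd h n12.symm
    have hc : ∀ i i', Commute (d i) (d i') := by
      intro i i'
      fin_cases i <;> fin_cases i' <;> first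
        | exact Commute.refl _
        | exact hc02
        | exact hc22
        | exact comm_L0_L2
        | exact hc02.symm
        | exact hc22.symm
        | exact comm_L0_L2.symm
    have key : ∀ τ : Equiv.Perm (Fin 3), ∃ g : G2, ∀ i, g * d (τ i) * g⁻¹ = d i := by
      intro τ
      have n01 : τ 0 ≠ τ 1 := fun k => absurd (τ.injective k) (by decide)
      have n02 : τ 0 ≠ τ 2 := fun k => absurd (τ.injective k) (by decide)
      have n12 : τ 1 ≠ τ 2 := fun k => absurd (τ.injective k) (by decide)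
      obtain ⟨g, g1, g2, g3⟩ := triple_nf2 (hmemD (τ 0)) (hmemD (τ 1)) (hmemD (τ 2)) (hc _ _) (hc _ _) (hc _ _)
        (fun k => n01 (hinj k)) (fun k => n02 (hinj k)) (fun k => n12 (hinj k))
      refine ⟨g, fun i => ?_⟩
      fin_cases i
      · exact g1
      · exact g2
      · exact g3
    obtain ⟨g, hg⟩ := key σ
    refine ⟨g⁻¹, fun i => ?_⟩
    have := hg i
    calc g⁻¹ * d i * g⁻¹⁻¹ = g⁻¹ * (g * d (σ i) * g⁻¹) * g⁻¹⁻¹ := by rw [this]
      _ = d (σ i) := by group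

/-- The joint centralizer in the explicit group. -/
noncomputable abbrev Kt : Subgroup G2 := KT F2 z2 (L 0) (L 2)

theorem mem_Kt {k : G2} : k ∈ Kt ↔ k ∈ F2 ∧ k * z2 * k⁻¹ = z2 ∧ k * L 0 * k⁻¹ = L 0 ∧ k * L 2 * k⁻¹ = L 2 := mem_KT

theorem Kt_H2 {k : G2} (h : k ∈ Kt) : k ∈ H2 := (comm_z2_iff k).1 (conj_eq_iff_comm.1 (mem_Kt.1 h).2.1)

theorem L2_H2 : L 2 ∈ H2 := mem_H2_of_Dlt L2_mem_Dlt

theorem a2_mem : M23.Explicit.L 2 ∈ M23.Explicit.D1 := M23.Explicit.L2_mem.1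

theorem comm_a0 {k : G2} (h : k ∈ Kt) : Commute (π2 k) (M23.Explicit.L 0) := by
  have e : k * L 0 = L 0 * k := (conj_eq_iff_comm.1 (mem_Kt.1 h).2.2.1).eq
  show π2 k * _ = _ * π2 k
  rw [← π2_L0, ← π2_mul (Kt_H2 h) L0_H2, ← π2_mul L0_H2 (Kt_H2 h), e]

theorem comm_a2 {k : G2} (h : k ∈ Kt) : Commute (π2 k) (M23.Explicit.L 2) := by
  have e : k * L 2 = L 2 * k := (conj_eq_iff_comm.1 (mem_Kt.1 h).2.2.2).eq
  show π2 k * _ = _ * π2 k
  rw [← π2_L2, ← π2_mul (Kt_H2 h) L2_H2, ← π2_mul L2_H2 (Kt_H2 h), e]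

theorem π2_jA : π2 (z2 * L 0) = M23.Explicit.L 0 := by
  rw [π2_mul z2_H2 L0_H2, π2_z, π2_L0, one_mul]

theorem π2_jB : π2 (z2 * L 2) = M23.Explicit.L 2 := by
  rw [π2_mul z2_H2 L2_H2, π2_z, π2_L2, one_mul]

theorem jA_mem : z2 * L 0 ∈ Kt := ET_le_KT Hyp3z (Subgroup.subset_closure (by simp))

theorem jB_mem : z2 * L 2 ∈ Kt := ET_le_KT Hyp3z (Subgroup.subset_closure (by simp))

/-- The isomorphism of the joint centralizer with the joint centralizer of two transpositions of `Fi23`. -/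
theorem exists_mu : ∃ μ : ↥Kt ≃* ↥M23.Explicit.K0, ∀ k : ↥Kt,
    ((μ k : ↥M23.Explicit.K0) : M23.Explicit.G1) ∈ M23.Explicit.V0 ↔ k.1 ∈ ET z2 (L 0) (L 2) := by
  obtain ⟨g, hg0, hg2⟩ := M23.Explicit.pair_nf1 a1_mem a2_mem M23.Explicit.L0_L2_comm M23.Explicit.L0_ne_L2
  let μ₀ : ↥Kt →* ↥M23.Explicit.K0 :=
    { toFun := fun k => ⟨g * π2 k.1 * g⁻¹, M23.Explicit.mem_K0.2 ⟨by
          rw [← hg0]; exact conj_comm (comm_a0 k.2), by rw [← hg2]; exact conj_comm (comm_a2 k.2)⟩⟩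
      map_one' := by
        apply Subtype.ext
        show g * π2 1 * g⁻¹ = 1
        rw [π2_one]
        group
      map_mul' := by
        intro x y
        apply Subtype.ext
        show g * π2 (x.1 * y.1) * g⁻¹ = (g * π2 x.1 * g⁻¹) * (g * π2 y.1 * g⁻¹)
        rw [π2_mul (Kt_H2 x.2) (Kt_H2 y.2)]
        group }
  have hval : ∀ k : ↥Kt, ((μ₀ k : ↥M23.Explicit.K0) : M23.Explicit.G1) = g * π2 k.1 * g⁻¹ := fun _ => rfl
  have hinj : Function.Injective μ₀ := by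
    rw [injective_iff_map_eq_one]
    intro k hk
    have h1 : g * π2 k.1 * g⁻¹ = 1 := by
      rw [← hval, hk]
      rfl
    have h2 : π2 k.1 = π2 1 := by
      rw [π2_one]
      have : π2 k.1 = g⁻¹ * (g * π2 k.1 * g⁻¹) * g := by group
      rw [this, h1]
      group
    rcases (π2_eq_iff (Kt_H2 k.2) (one_mem H2)).1 h2 with e | e
    · exact Subtype.ext e
    · exfalso
      rw [one_mul] at e
      apply z2_not_F2
      rw [← e]
      exact (mem_Kt.1 k.2).1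
  have hsurj : Function.Surjective μ₀ := by
    rintro ⟨h, hh⟩
    obtain ⟨hc1, hc2⟩ := M23.Explicit.mem_K0.1 hh
    set y := g⁻¹ * h * g with hy
    have hcy : ∀ {u : M23.Explicit.G1}, Commute h (g * u * g⁻¹) → y * u * y⁻¹ = u := by
      intro u hu
      have e1 : h * (g * u * g⁻¹) * h⁻¹ = g * u * g⁻¹ := conj_eq_iff_comm.2 hu
      calc y * u * y⁻¹ = g⁻¹ * (h * (g * u * g⁻¹) * h⁻¹) * g := by rw [hy]; group
        _ = g⁻¹ * (g * u * g⁻¹) * g := by rw [e1]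
        _ = _ := by group
    have hcy0 := hcy (u := M23.Explicit.L 0) (by rw [hg0]; exact hc1)
    have hcy2 := hcy (u := M23.Explicit.L 2) (by rw [hg2]; exact hc2)
    obtain ⟨f, hf, hfF, hfy⟩ := exists_lift y
    have hπ : π2 f = y := by rw [π2_of_mem hf, hfy]
    have e1 : f * L 0 * f⁻¹ = L 0 := by
      apply π2_inj (conj_mem_Dlt hf L0_mem_Dlt) L0_mem_Dlt
      rw [π2_conj hf L0_H2, hπ, π2_L0, hcy0]
    have e2 : f * L 2 * f⁻¹ = L 2 := by
      apply π2_inj (conj_mem_Dlt hf L2_mem_Dlt) L2_mem_Dlt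
      rw [π2_conj hf L2_H2, hπ, π2_L2, hcy2]
    refine ⟨⟨f, mem_Kt.2 ⟨hfF, conj_z2 hf, e1, e2⟩⟩, Subtype.ext ?_⟩
    show g * π2 f * g⁻¹ = h
    rw [hπ, hy]
    group
  refine ⟨MulEquiv.ofBijective μ₀ ⟨hinj, hsurj⟩, fun k => ?_⟩
  show ((μ₀ k : ↥M23.Explicit.K0) : M23.Explicit.G1) ∈ M23.Explicit.V0 ↔ _
  let jA : ↥Kt := ⟨z2 * L 0, jA_mem⟩
  let jB : ↥Kt := ⟨z2 * L 2, jB_mem⟩
  have hA : ((μ₀ jA : ↥M23.Explicit.K0) : M23.Explicit.G1) = M23.Explicit.z1 := by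
    show g * π2 (z2 * L 0) * g⁻¹ = _
    rw [π2_jA, hg0]
  have hB : ((μ₀ jB : ↥M23.Explicit.K0) : M23.Explicit.G1) = M23.Explicit.L 0 := by
    show g * π2 (z2 * L 2) * g⁻¹ = _
    rw [π2_jB, hg2]
  have hAE : jA.1 ∈ ET z2 (L 0) (L 2) := Subgroup.subset_closure (by simp [jA])
  have hBE : jB.1 ∈ ET z2 (L 0) (L 2) := Subgroup.subset_closure (by simp [jB])
  constructor
  · intro hk
    rcases M23.Explicit.mem_V0.1 hk with e | e | e | e
    · have : μ₀ k = 1 := Subtype.ext e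
      have h2 := hinj (this.trans (map_one μ₀).symm)
      rw [h2]
      exact one_mem _
    · have : μ₀ k = μ₀ jA := Subtype.ext (e.trans hA.symm)
      rw [hinj this]
      exact hAE
    · have : μ₀ k = μ₀ jB := Subtype.ext (e.trans hB.symm)
      rw [hinj this]
      exact hBE
    · have : μ₀ k = μ₀ (jA * jB) := by
        apply Subtype.ext
        rw [e, map_mul]
        show _ = ((μ₀ jA : ↥M23.Explicit.K0) : M23.Explicit.G1) * ((μ₀ jB : ↥M23.Explicit.K0) : M23.Explicit.G1)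
        rw [hA, hB]
      rw [hinj this]
      exact mul_mem hAE hBE
  · intro hk
    have hle : ET z2 (L 0) (L 2) ≤ (M23.Explicit.V0.comap (M23.Explicit.K0.subtype.comp μ₀)).map Kt.subtype := by
      refine (Subgroup.closure_le _).2 ?_
      rintro y (rfl | hy)
      · refine ⟨jA, ?_, rfl⟩
        show ((μ₀ jA : ↥M23.Explicit.K0) : M23.Explicit.G1) ∈ M23.Explicit.V0
        rw [hA]
        exact Subgroup.subset_closure (by simp)
      · rw [Set.mem_singleton_iff.1 hy]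
        refine ⟨jB, ?_, rfl⟩
        show ((μ₀ jB : ↥M23.Explicit.K0) : M23.Explicit.G1) ∈ M23.Explicit.V0
        rw [hB]
        exact Subgroup.subset_closure (by simp)
    obtain ⟨k', hk', hkk'⟩ := hle hk
    have : k' = k := Subtype.ext hkk'
    rw [this] at hk'
    exact hk'

/-- The structure of the joint centralizer. -/
theorem exists_f : IsQuasisimple ↥Kt ∧ (Subgroup.center ↥Kt).map Kt.subtype = ET z2 (L 0) (L 2) ∧
    ∃ f : ↥Kt →* M23.Explicit.PS, Function.Surjective f ∧ ∀ k : ↥Kt, f k = 1 ↔ k.1 ∈ ET z2 (L 0) (L 2) := by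
  obtain ⟨μ, hμ⟩ := exists_mu
  refine ⟨Cfsg.Agent.Lib.Components.FStar.isQuasisimple_congr μ.symm M23.Explicit.quasi_K0, ?_,
    M23.Explicit.ρK.comp μ.toMonoidHom, M23.Explicit.ρK_surj.comp μ.surjective, ?_⟩
  · ext y
    constructor
    · rintro ⟨x, hx, rfl⟩
      have h1 : μ x ∈ Subgroup.center ↥M23.Explicit.K0 := (mem_center_congr μ x).2 hx
      exact (hμ x).1 ((M23.Explicit.mem_center_K0 _).1 h1)
    · intro hy
      have hyK : y ∈ Kt := ET_le_KT Hyp3z hy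
      refine ⟨⟨y, hyK⟩, ?_, rfl⟩
      rw [SetLike.mem_coe, ← mem_center_congr μ, M23.Explicit.mem_center_K0]
      exact (hμ ⟨y, hyK⟩).2 hy
  · intro k
    show M23.Explicit.ρK (μ k) = 1 ↔ _
    rw [M23.Explicit.ρK_eq_one_iff]
    exact hμ k

theorem card_aut : Nat.card (MulAut M23.Explicit.PS) = 6 * Nat.card M23.Explicit.PS := by
  haveI : Fact (Nat.Prime 2) := ⟨Nat.prime_two⟩
  have h := Cfsg.Agent.S0815.result (F := Cfsg.Agent.Lib.Compute.GF4.F4) 2 1 (le_refl _) (q := 2) (by norm_num)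
    (by rw [Cfsg.Agent.Lib.Compute.GF4.F4.card_eq]; norm_num) 6 (by norm_num) (by norm_num)
  rw [h]
  norm_num

/-- The final structure. -/
theorem final {G : Type*} [Group G] [Finite G] {D : Set G} (e : G ≃* G2) (he : ∀ a, a ∈ D ↔ e a ∈ D2) {d₁ d₂ d₃ : G}
    (h₁ : d₁ ∈ D) (h₂ : d₂ ∈ D) (h₃ : d₃ ∈ D) (h12 : d₁ ≠ d₂) (h13 : d₁ ≠ d₃) (h23 : d₂ ≠ d₃)
    (c12 : Commute d₁ d₂) (c13 : Commute d₁ d₃) (c23 : Commute d₂ d₃) :
    IsQuasisimple ↥(KT (commutator G) d₁ d₂ d₃) ∧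
    (Subgroup.center ↥(KT (commutator G) d₁ d₂ d₃)).map (KT (commutator G) d₁ d₂ d₃).subtype = ET d₁ d₂ d₃ ∧
    (generalizedFittingSubgroup ↥(CT (commutator G) d₁ d₂ d₃)).map (CT (commutator G) d₁ d₂ d₃).subtype = KT (commutator G) d₁ d₂ d₃ ∧
    KT (commutator G) d₁ d₂ d₃ = commutator G ⊓ Subgroup.centralizer ((ET d₁ d₂ d₃ : Subgroup G) : Set G) ∧
    (∃ _ : ((ET d₁ d₂ d₃).subgroupOf (KT (commutator G) d₁ d₂ d₃)).Normal,
      Nonempty (↥(KT (commutator G) d₁ d₂ d₃) ⧸ (ET d₁ d₂ d₃).subgroupOf (KT (commutator G) d₁ d₂ d₃) ≃* M23.Explicit.PS)) ∧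
    (∃ _ : ((KT (commutator G) d₁ d₂ d₃).subgroupOf (CT (commutator G) d₁ d₂ d₃)).Normal,
      Nonempty (↥(CT (commutator G) d₁ d₂ d₃) ⧸ (KT (commutator G) d₁ d₂ d₃).subgroupOf (CT (commutator G) d₁ d₂ d₃) ≃* Equiv.Perm (Fin 3))) ∧
    ET d₁ d₂ d₃ ≤ CT (commutator G) d₁ d₂ d₃ ∧
    ∃ _ : ((ET d₁ d₂ d₃).subgroupOf (CT (commutator G) d₁ d₂ d₃)).Normal,
      Nonempty (↥(CT (commutator G) d₁ d₂ d₃) ⧸ (ET d₁ d₂ d₃).subgroupOf (CT (commutator G) d₁ d₂ d₃) ≃* MulAut M23.Explicit.PS) := by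
  obtain ⟨g, hg1, hg2, hg3⟩ := triple_nf2 ((he _).1 h₁) ((he _).1 h₂) ((he _).1 h₃) (c12.map e) (c13.map e) (c23.map e)
    (fun k => h12 (e.injective k)) (fun k => h13 (e.injective k)) (fun k => h23 (e.injective k))
  let e' : G ≃* G2 := e.trans (MulAut.conj g)
  have hval : ∀ a, e' a = g * e a * g⁻¹ := fun _ => rfl
  have he' : ∀ a, a ∈ D ↔ e' a ∈ D2 := by
    intro a
    rw [he, hval]
    constructor
    · exact D2_conj _ _
    · intro k
      have := D2_conj g⁻¹ _ k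
      have e3 : g⁻¹ * (g * e a * g⁻¹) * g⁻¹⁻¹ = e a := by group
      rwa [e3] at this
  have hL' : ∀ a, a ∈ commutator G ↔ e' a ∈ F2 := by
    intro a
    have h1 : (commutator G).map e'.toMonoidHom = commutator G2 := by
      rw [commutator_def, commutator_def, Subgroup.map_commutator, Subgroup.map_top_of_surjective _ e'.surjective]
    rw [← commutator2, ← h1]
    constructor
    · intro k
      exact ⟨a, k, rfl⟩
    · rintro ⟨b, hb, hab⟩
      have : b = a := e'.injective hab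
      rwa [← this]
  have e1 : e' d₁ = z2 := hg1
  have e2 : e' d₂ = L 0 := hg2
  have e3 : e' d₃ = L 2 := hg3
  have ex : e' (e'.symm (L 4)) = L 4 := e'.apply_symm_apply _
  have H : Hyp3 D (commutator G) d₁ d₂ d₃ (e'.symm (L 4)) := by
    apply Hyp3_of_iso e' he' hL'
    rw [e1, e2, e3, ex]
    exact Hyp3z
  have iK : ∀ a, a ∈ KT (commutator G) d₁ d₂ d₃ ↔ e' a ∈ Kt := by
    intro a
    rw [mem_KT, mem_Kt, hL', ← e1, ← e2, ← e3, ← map_inv, ← map_mul, ← map_mul, ← map_mul, ← map_mul, ← map_mul, ← map_mul,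
      e'.injective.eq_iff, e'.injective.eq_iff, e'.injective.eq_iff]
  have iE : ∀ a, a ∈ ET d₁ d₂ d₃ ↔ e' a ∈ ET z2 (L 0) (L 2) := by
    apply M23.Explicit.mem_closure_map e'
    rw [Set.image_pair, map_mul, map_mul, e1, e2, e3]
  let FK : ↥(KT (commutator G) d₁ d₂ d₃) ≃* ↥Kt := M23.Explicit.resE e' _ _ iK
  obtain ⟨hq, hcen, f, hfs, hfk⟩ := exists_f
  have hq' : IsQuasisimple ↥(KT (commutator G) d₁ d₂ d₃) := Cfsg.Agent.Lib.Components.FStar.isQuasisimple_congr FK.symm hq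
  have hcen' : (Subgroup.center ↥(KT (commutator G) d₁ d₂ d₃)).map (KT (commutator G) d₁ d₂ d₃).subtype = ET d₁ d₂ d₃ := by
    ext y
    rw [iE, ← hcen]
    constructor
    · rintro ⟨x, hx, rfl⟩
      exact ⟨FK x, (mem_center_congr FK x).2 hx, rfl⟩
    · rintro ⟨x, hx, hxy⟩
      refine ⟨FK.symm x, ?_, ?_⟩
      · rw [SetLike.mem_coe, ← mem_center_congr FK, MulEquiv.apply_symm_apply]
        exact hx
      · apply e'.injective
        rw [← hxy]
        have := FK.apply_symm_apply x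
        exact congrArg Subtype.val this
  have m := main (D := D) (L := commutator G) (d₁ := d₁) (d₂ := d₂) (d₃ := d₃) H hq' hcen' (S := M23.Explicit.PS)
    M23.Explicit.center_PS (f.comp FK.toMonoidHom) (hfs.comp FK.surjective) (by
      intro k
      show f (FK k) = 1 ↔ _
      rw [hfk, iE]
      rfl) card_aut
  exact ⟨hq', hcen', m.1, m.2.1, m.2.2.1, m.2.2.2.1, m.2.2.2.2.1, m.2.2.2.2.2⟩

end Cfsg.Agent.Lib.Fischer.M24.AutTripleE
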